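import Cfsg.Agent.Lib.Leech.RankOrbits

/-!
Moving pairs to the standard ones, and a fixed-point-free involution on the 100 points.
-/

set_option autoImplicit false
set_option maxRecDepth 100000

namespace Cfsg.Agent.Lib.Leech

open Cfsg Golay

theorem std_mc {u v : ↥leechLattice} (hu : sqNorm (u : GolayPt → ℤ) = 48)
    (hv : sqNorm (v : GolayPt → ℤ) = 32 ∧ sqNorm ((u : GolayPt → ℤ) - (v : GolayPt → ℤ)) = 32) :
    ∃ k : ↥Co0, k • u = vFive ∧ k • v = fourFour := by
  obtain ⟨c, hc⟩ := std_five hu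
  obtain ⟨g, hg, e⟩ := trans_pair (hc ▸ (mem_dotSet_smul c).2
    (show v ∈ dotSet u 24 from ⟨hv.1, (sub_norm_iff hu hv.1).1 hv.2⟩))
  exact ⟨g⁻¹ * c, by rw [mul_smul, hc, inv_smul_eq_iff, hg], by rw [mul_smul, ← e, inv_smul_smul]⟩

theorem ncard_smul_set' (k : ↥Co0) {S T : Set ↥leechLattice} (h : ∀ x, x ∈ S ↔ k • x ∈ T) : S.ncard = T.ncard := by
  refine Set.ncard_congr (fun x _ => k • x) (fun x hx => (h x).1 hx) (fun x y _ _ e => MulAction.injective k e)
    fun y hy => ⟨k⁻¹ • y, (h _).2 ?_, smul_inv_smul k y⟩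
  rwa [smul_inv_smul]

theorem smul_dot_iff (k : ↥Co0) {x a : ↥leechLattice} (ha : k • x = a) (y : ↥leechLattice) :
    dotInt (x : GolayPt → ℤ) (y : GolayPt → ℤ) = dotInt (a : GolayPt → ℤ) ((k • y : ↥leechLattice) : GolayPt → ℤ) := by
  rw [← ha, dot_smul]

/-- An involution without fixed points among the 100. -/
theorem exists_invol : ∃ g : ↥Co0, g • vFive = vFive ∧ g • fivePartner = fivePartner ∧ orderOf g = 2 ∧
    ∀ x ∈ hsPts vFive fivePartner, g • x ≠ x := by
  have h := invol_checks
  simp only [Bool.and_eq_true, List.all_eq_true, bne_iff_ne, ne_eq, beq_iff_eq] at h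
  obtain ⟨⟨⟨⟨hok, h5⟩, h5'⟩, hfree⟩, hsq⟩ := h
  set g := wCo RankOrb.hsInvol
  have hfix : ∀ x ∈ hsPts vFive fivePartner, g • x ≠ x := by
    intro x hx
    obtain ⟨⟨hokg, hT⟩, -⟩ := (show ((∀ w ∈ RankOrb.hsGens, wOk w = true) ∧ ∀ e ∈ RankOrb.hsPtTree, e.1 < RankOrb.hsGens.length) ∧ True from by
      have := hs_orbit_ok
      simp only [orbitOK, Bool.and_eq_true, List.all_eq_true, Nat.blt_eq] at this
      exact ⟨this.1.1, trivial⟩)
    have hall : ∀ a ∈ orbitVecs RankOrb.hsGens RankOrb.hsPtTree RankOrb.fourFour, ∃ k ∈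
        MulAction.stabilizer ↥Co0 vFive ⊓ MulAction.stabilizer ↥Co0 fivePartner,
        ((k • fourFour : ↥leechLattice) : GolayPt → ℤ) = toVec a := by
      intro a ha
      have h0 : ((1 : ↥Co0) • fourFour : ↥leechLattice) = fourFour := one_smul _ _
      rcases List.mem_cons.1 ha with rfl | ha
      · exact ⟨1, Subgroup.one_mem _, by rw [h0]; exact funext vec_eqs.2.2⟩
      · exact walk_reach _ hokg (gens_fix_pair fix_checks.1 (funext vec_eqs.1) (funext vec_eqs.2.1)
          (by rw [vFive_shape.1]; norm_num) (by rw [partner_facts.1]; norm_num)) fourFour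
          (by rw [rep_facts.1.1]; norm_num) RankOrb.hsPtTree [RankOrb.fourFour] hT
          (fun c hc => by
            rw [List.mem_singleton.1 hc]
            exact ⟨1, Subgroup.one_mem _, by rw [h0]; exact funext vec_eqs.2.2⟩) a ha
    have hlist : ∃ a ∈ orbitVecs RankOrb.hsGens RankOrb.hsPtTree RankOrb.fourFour, (x : GolayPt → ℤ) = toVec a := by
      by_contra hno
      push Not at hno
      have hfin : (hsPts vFive fivePartner).Finite := Set.finite_of_ncard_pos (by rw [hs_ncard]; norm_num)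
      have hd := hs_orbit_ok
      simp only [orbitOK, Bool.and_eq_true, beq_iff_eq] at hd
      obtain ⟨hnd, -⟩ := distinctFrom_spec hd.2
      choose f hf1 hf2 using hall
      let im : List ↥leechLattice :=
        (orbitVecs RankOrb.hsGens RankOrb.hsPtTree RankOrb.fourFour).attach.map fun a => f a.1 a.2 • fourFour
      have hinj : im.Nodup := by
        refine List.Nodup.map_on (fun a _ b _ e => Subtype.ext ?_) (List.nodup_attach.2 hnd.of_map)
        refine List.inj_on_of_nodup_map hnd a.2 b.2 (key_congr ?_)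
        rw [← hf2 a.1 a.2, ← hf2 b.1 b.2, e]
      have hsub : (↑im.toFinset : Set ↥leechLattice) ⊆ hsPts vFive fivePartner \ {x} := by
        intro z hz
        simp only [List.coe_toFinset, Set.mem_setOf_eq, im, List.mem_map] at hz
        obtain ⟨a, -, rfl⟩ := hz
        refine ⟨?_, fun e => hno a.1 a.2 ?_⟩
        · have h := (smul_hsPts (v := vFive) (w := fivePartner) (f a.1 a.2)).2 (rep_facts.1 : fourFour ∈ hsPts vFive fivePartner)
          rwa [MulAction.mem_stabilizer_iff.1 (hf1 a.1 a.2).1, MulAction.mem_stabilizer_iff.1 (hf1 a.1 a.2).2] at h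
        · rw [← Set.mem_singleton_iff.1 e]; exact hf2 a.1 a.2
      have hle := Set.ncard_le_ncard hsub (hfin.subset Set.diff_subset)
      rw [Set.ncard_coe_finset, List.toFinset_card_of_nodup hinj, Set.ncard_diff_singleton_of_mem hx, hs_ncard] at hle
      simp only [im, List.length_map, List.length_attach, hd.1.2] at hle
      omega
    obtain ⟨a, ha, hxa⟩ := hlist
    intro e
    have h1 := wRun_spec hok hxa (by rw [hx.1]; norm_num)
    rw [e, hxa] at h1
    exact hfree a ha (key_congr h1.symm)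
  refine ⟨g, wCo_fix hok (funext vec_eqs.1) (by rw [vFive_shape.1]; norm_num) (by rw [h5]; simp),
    wCo_fix hok (funext vec_eqs.2.1) (by rw [partner_facts.1]; norm_num) (by rw [h5']; simp), ?_, hfix⟩
  haveI : Fact (Nat.Prime 2) := ⟨Nat.prime_two⟩
  refine orderOf_eq_prime ?_ fun e => hfix fourFour rep_facts.1 (by rw [e, one_smul])
  rw [pow_two]
  refine co_ext fun i => Subtype.ext ?_
  have e8v : ∀ p : GolayPt, (e8 i : GolayPt → ℤ) p = toVec (mk fun j => if j = ix i then 40 else 32) p := fun p => by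
    rw [coe_e8, toVec_mk, Pi.single_apply]
    by_cases hp : p = i
    · simp [hp]
    · have : ix p ≠ ix i := fun e => hp (ix_inj e)
      simp [hp, this]
  have hw2 : wOk (RankOrb.hsInvol ++ RankOrb.hsInvol) = true := by
    rw [wOk, List.all_append, Bool.and_self]; exact hok
  have hh := wRun_spec hw2 (funext e8v) (by rw [sqNorm_e8])
  rw [show wCo (RankOrb.hsInvol ++ RankOrb.hsInvol) = g * g by rw [wCo, List.map_append, List.prod_append]; rfl,
    hsq (ix i) (mem_idx.2 (ix_lt i))] at hh
  rw [hh, one_smul]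
  exact (funext e8v).symm

end Cfsg.Agent.Lib.Leech
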