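import Cfsg.Agent.Lib.Leech.SubData
import Cfsg.Agent.Lib.Leech.RankData
import Cfsg.Agent.Lib.Leech.RankWeights
import Cfsg.Agent.Lib.Leech.DotsFast

/-!
Counts for the suborbits on 2025 points.
-/

set_option autoImplicit false
set_option maxRecDepth 100000

namespace Cfsg.Agent.Lib.Leech

open Cfsg Golay

theorem mc_block_count : (cpOK (wTwo (toVec RankOrb.five) (toVec RankOrb.fourFour)) (clsOf [1, 4001, 4005]) 83076749736557242056487941267521537 &&
    (nsum (fun P => cntP (clsOf [1, 4001, 4005]) 32 (16 + 1000 * 0) (unpack (clsOf [1, 4001, 4005]).length P)) (fastTable 83076749736557242056487941267521537) == 2025)) = true := by decide +kernel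

theorem mc_block_sub_count : (cpOK (wThree (toVec RankOrb.five) (toVec RankOrb.fourFour) (toVec SubOrb.mcBlock)) (clsOf [-999999, -995999, 1000001, 1004005, 3000001]) 127211352342132816685092670055383169 &&
    (nsum (fun P => cntP (clsOf [-999999, -995999, 1000001, 1004005, 3000001]) 32 (16 + 1000 * 0 + 1000000 * 0) (unpack (clsOf [-999999, -995999, 1000001, 1004005, 3000001]).length P)) (fastTable 127211352342132816685092670055383169) == 330) &&
    (nsum (fun P => cntP (clsOf [-999999, -995999, 1000001, 1004005, 3000001]) 32 (16 + 1000 * 0 + 1000000 * 16) (unpack (clsOf [-999999, -995999, 1000001, 1004005, 3000001]).length P)) (fastTable 127211352342132816685092670055383169) == 462) &&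
    (nsum (fun P => cntP (clsOf [-999999, -995999, 1000001, 1004005, 3000001]) 32 (16 + 1000 * 0 + 1000000 * 8) (unpack (clsOf [-999999, -995999, 1000001, 1004005, 3000001]).length P)) (fastTable 127211352342132816685092670055383169) == 1232)) = true := by decide +kernel

end Cfsg.Agent.Lib.Leech
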