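import Cfsg.Agent.Lib.Leech.SubData
import Cfsg.Agent.Lib.Leech.RankData

/-!
Kernel checks for the suborbits on 11178 points.
-/

set_option autoImplicit false
set_option maxRecDepth 100000

namespace Cfsg.Agent.Lib.Leech

open Cfsg Golay

theorem hs_sub0_ok : orbitOK RankOrb.hsGens SubOrb.hsSub0Tree SubOrb.hsSub0Start 352 = true := by decide +kernel

theorem hs_sub1_ok : orbitOK RankOrb.hsGens SubOrb.hsSub1Tree SubOrb.hsSub1Start 1100 = true := by decide +kernel

theorem hs_sub2_ok : orbitOK RankOrb.hsGens SubOrb.hsSub2Tree SubOrb.hsSub2Start 4125 = true := by decide +kernel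

theorem hs_sub3_ok : orbitOK RankOrb.hsGens SubOrb.hsSub3Tree SubOrb.hsSub3Start 5600 = true := by decide +kernel

theorem hs_sub_fix : (RankOrb.hsGens.all fun w => wOk w && (wRun w RankOrb.five == RankOrb.five) && (wRun w SubOrb.negFour == SubOrb.negFour)) = true := by decide +kernel

end Cfsg.Agent.Lib.Leech
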