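import Cfsg.Agent.Lib.Leech.SubCensusHS
import Cfsg.Agent.Lib.Leech.SubCensusMC
import Cfsg.Agent.Lib.Leech.SubChecksHS
import Cfsg.Agent.Lib.Leech.SubChecksMC
import Cfsg.Agent.Lib.Leech.RankTransport
import Cfsg.Agent.Lib.Leech.PairGroups

/-!
The suborbits on 11178 and on 2025 minimal vectors.
-/

set_option autoImplicit false
set_option maxRecDepth 100000

namespace Cfsg.Agent.Lib.Leech

open Cfsg Golay

theorem orbit_class {gs : List (List Op)} {T : List (ℕ × ℕ)} {start n : ℕ} (h : orbitOK gs T start n = true)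
    (K : Subgroup ↥Co0) (hK : ∀ g ∈ gs, wCo g ∈ K) {x : ↥leechLattice} (hx : (x : GolayPt → ℤ) = toVec start)
    (hx64 : sqNorm (x : GolayPt → ℤ) ≤ 64) (S : Set ↥leechLattice) (hn : S.ncard = n) (hS : ∀ k ∈ K, k • x ∈ S) :
    MulAction.orbit ↥K x = S := by
  ext y
  constructor
  · rintro ⟨k, rfl⟩; exact hS _ k.2
  · intro hy
    obtain ⟨k, hk, e⟩ := orbit_fills h K hK hx hx64 S hn hS y hy
    exact ⟨⟨k, hk⟩, e⟩

theorem orbit_transport {K K' : Subgroup ↥Co0} (k : ↥Co0) (h : ∀ g, g ∈ K ↔ k * g * k⁻¹ ∈ K') (y : ↥leechLattice) :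
    MulAction.orbit ↥K y = (fun z => k⁻¹ • z) '' MulAction.orbit ↥K' (k • y) := by
  ext z
  constructor
  · rintro ⟨g, rfl⟩
    refine ⟨(k * g * k⁻¹ : ↥Co0) • k • y, ⟨⟨_, (h g).1 g.2⟩, rfl⟩, ?_⟩
    show k⁻¹ • (k * g * k⁻¹ : ↥Co0) • k • y = (g : ↥Co0) • y
    rw [mul_smul, mul_smul, inv_smul_smul, inv_smul_smul]
  · rintro ⟨_, ⟨g, rfl⟩, rfl⟩
    refine ⟨⟨k⁻¹ * g * k, (h _).2 ?_⟩, ?_⟩
    · rw [show k * (k⁻¹ * (g : ↥Co0) * k) * k⁻¹ = g by group]; exact g.2
    · show (k⁻¹ * (g : ↥Co0) * k) • y = k⁻¹ • (g : ↥Co0) • k • y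
      rw [mul_smul, mul_smul]

theorem mem_stab_conj {a a' : ↥leechLattice} {k : ↥Co0} (ha : k • a = a') (g : ↥Co0) :
    g ∈ MulAction.stabilizer ↥Co0 a ↔ k * g * k⁻¹ ∈ MulAction.stabilizer ↥Co0 a' := by
  rw [MulAction.mem_stabilizer_iff, MulAction.mem_stabilizer_iff, ← ha, mul_smul, mul_smul, inv_smul_smul,
    (MulAction.injective k).eq_iff]

/-- The suborbit classes on 11178 points. -/
def hsClass (d : ℤ) : Set ↥leechLattice :=
  {y | y ∈ dotSet vFive (-16) ∧ dotInt (fourNeg : GolayPt → ℤ) (y : GolayPt → ℤ) = d}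

/-- Representatives. -/
def hsRep0 : ↥leechLattice := ⟨toVec SubOrb.hsSub0Start, mem_of_check (by decide +kernel)⟩

/-- Representatives. -/
def hsRep1 : ↥leechLattice := ⟨toVec SubOrb.hsSub1Start, mem_of_check (by decide +kernel)⟩

/-- Representatives. -/
def hsRep2 : ↥leechLattice := ⟨toVec SubOrb.hsSub2Start, mem_of_check (by decide +kernel)⟩

/-- Representatives. -/
def hsRep3 : ↥leechLattice := ⟨toVec SubOrb.hsSub3Start, mem_of_check (by decide +kernel)⟩

theorem negFour_eq : ∀ p, (fourNeg : GolayPt → ℤ) p = toVec SubOrb.negFour p := by decide +kernel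

theorem hs_rep_facts :
    (sqNorm (hsRep0 : GolayPt → ℤ) = 32 ∧ dotInt (vFive : GolayPt → ℤ) (hsRep0 : GolayPt → ℤ) = -16 ∧
      dotInt (fourNeg : GolayPt → ℤ) (hsRep0 : GolayPt → ℤ) = -8) ∧
    (sqNorm (hsRep1 : GolayPt → ℤ) = 32 ∧ dotInt (vFive : GolayPt → ℤ) (hsRep1 : GolayPt → ℤ) = -16 ∧
      dotInt (fourNeg : GolayPt → ℤ) (hsRep1 : GolayPt → ℤ) = 16) ∧
    (sqNorm (hsRep2 : GolayPt → ℤ) = 32 ∧ dotInt (vFive : GolayPt → ℤ) (hsRep2 : GolayPt → ℤ) = -16 ∧
      dotInt (fourNeg : GolayPt → ℤ) (hsRep2 : GolayPt → ℤ) = 0) ∧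
    (sqNorm (hsRep3 : GolayPt → ℤ) = 32 ∧ dotInt (vFive : GolayPt → ℤ) (hsRep3 : GolayPt → ℤ) = -16 ∧
      dotInt (fourNeg : GolayPt → ℤ) (hsRep3 : GolayPt → ℤ) = 8) := by
  decide +kernel

theorem hsClass_ncard : (hsClass (-8)).ncard = 352 ∧ (hsClass 16).ncard = 1100 ∧ (hsClass 0).ncard = 4125 ∧
    (hsClass 8).ncard = 5600 := by
  have h := hs_sub_count
  simp only [Bool.and_eq_true, beq_iff_eq] at h
  have key : ∀ d, (hsClass d).ncard = nsum (fun P => cntP (clsOf [-3995, 1, 4001]) 32 (-16 + 1000 * d)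
      (unpack (clsOf [-3995, 1, 4001]).length P)) (fastTable 1339947576396084549298192601089058) := by
    intro d
    rw [← census_fast _ 32 _ (by norm_num) _ (by decide) _ h.1.1.1.1, ← ncard_sub
      (fun x => sqNorm x = 32 ∧ dotInt (wTwo (toVec RankOrb.five) (toVec SubOrb.negFour)) x = -16 + 1000 * d)]
    congr 1
    ext x
    show (_ ∧ _) ∧ _ ↔ _ ∧ _
    rw [← funext vec_eqs.1, ← funext negFour_eq, dot_wTwo, and_assoc]
    refine and_congr_right fun hx => ?_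
    have h1 := dot_bound (vFive : GolayPt → ℤ) (x : GolayPt → ℤ)
    rw [vFive_shape.1, hx] at h1
    omega
  exact ⟨(key _).trans h.1.1.1.2, (key _).trans h.1.1.2, (key _).trans h.1.2, (key _).trans h.2⟩

theorem hs_suborbit {gs : List (List Op)} {T : List (ℕ × ℕ)} {start n : ℕ} (h : orbitOK gs T start n = true)
    (hgs : gs = RankOrb.hsGens) (x : ↥leechLattice) (hx : (x : GolayPt → ℤ) = toVec start) {d : ℤ}
    (hn : (hsClass d).ncard = n) (hm : x ∈ hsClass d) : MulAction.orbit ↥(pairStab fourNeg) x = hsClass d := by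
  subst hgs
  refine orbit_class h (pairStab fourNeg) (gens_fix_pair hs_sub_fix (funext vec_eqs.1) (funext negFour_eq)
    (by rw [vFive_shape.1]; norm_num) (by rw [start_facts.2.2.2.2.2.1]; norm_num)) hx (by rw [hm.1.1]; norm_num) _ hn
    fun k hk => ⟨smul_dotSet k (MulAction.mem_stabilizer_iff.1 hk.1) hm.1, ?_⟩
  rw [← hm.2]
  conv_lhs => rw [← MulAction.mem_stabilizer_iff.1 hk.2]
  rw [dot_smul]

theorem hs_suborbits :
    (MulAction.orbit ↥(pairStab fourNeg) hsRep0 = hsClass (-8)) ∧ (MulAction.orbit ↥(pairStab fourNeg) hsRep1 = hsClass 16) ∧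
    (MulAction.orbit ↥(pairStab fourNeg) hsRep2 = hsClass 0) ∧ (MulAction.orbit ↥(pairStab fourNeg) hsRep3 = hsClass 8) :=
  ⟨hs_suborbit hs_sub0_ok rfl _ rfl hsClass_ncard.1 ⟨⟨hs_rep_facts.1.1, hs_rep_facts.1.2.1⟩, hs_rep_facts.1.2.2⟩,
    hs_suborbit hs_sub1_ok rfl _ rfl hsClass_ncard.2.1 ⟨⟨hs_rep_facts.2.1.1, hs_rep_facts.2.1.2.1⟩, hs_rep_facts.2.1.2.2⟩,
    hs_suborbit hs_sub2_ok rfl _ rfl hsClass_ncard.2.2.1
      ⟨⟨hs_rep_facts.2.2.1.1, hs_rep_facts.2.2.1.2.1⟩, hs_rep_facts.2.2.1.2.2⟩,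
    hs_suborbit hs_sub3_ok rfl _ rfl hsClass_ncard.2.2.2
      ⟨⟨hs_rep_facts.2.2.2.1, hs_rep_facts.2.2.2.2.1⟩, hs_rep_facts.2.2.2.2.2⟩⟩

theorem hs_union : dotSet vFive (-16) = {fourNeg} ∪ hsClass (-8) ∪ hsClass 16 ∪ hsClass 0 ∪ hsClass 8 := by
  obtain ⟨n0, n1, n2, n3⟩ := hsClass_ncard
  have hfin : (dotSet vFive (-16)).Finite := Set.finite_of_ncard_pos (by rw [ncard_dotSet_five.2]; norm_num)
  have hsub : {fourNeg} ∪ hsClass (-8) ∪ hsClass 16 ∪ hsClass 0 ∪ hsClass 8 ⊆ dotSet vFive (-16) := by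
    rintro y ((((rfl | h) | h) | h) | h)
    · exact ⟨start_facts.2.2.2.2.2.1, start_facts.2.2.2.2.2.2.1⟩
    · exact h.1
    · exact h.1
    · exact h.1
    · exact h.1
  have hdist : ∀ {a b : ℤ}, a ≠ b → ∀ y, y ∈ hsClass a → y ∉ hsClass b := fun hab y h h' => hab (h.2.symm.trans h'.2)
  have hbase : ∀ {a : ℤ}, a ≠ 32 → fourNeg ∉ hsClass a := fun ha h => ha (by
    rw [← h.2, dot_self_eq, start_facts.2.2.2.2.2.1])
  have f : ∀ a, (hsClass a).Finite := fun a => hfin.subset fun y hy => hy.1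
  refine (Set.eq_of_subset_of_ncard_le hsub ?_ hfin).symm
  rw [Set.ncard_union_eq ?_ ((((Set.finite_singleton _).union (f _)).union (f _)).union (f _)) (f _),
    Set.ncard_union_eq ?_ (((Set.finite_singleton _).union (f _)).union (f _)) (f _),
    Set.ncard_union_eq ?_ ((Set.finite_singleton _).union (f _)) (f _),
    Set.ncard_union_eq ?_ (Set.finite_singleton _) (f _), Set.ncard_singleton, n0, n1, n2, n3, ncard_dotSet_five.2]
  all_goals
    refine Set.disjoint_left.2 ?_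
    intro y hy
    simp only [Set.mem_union, Set.mem_singleton_iff] at hy
  · rcases hy with rfl
    exact hbase (by norm_num)
  · rcases hy with rfl | h
    · exact hbase (by norm_num)
    · exact hdist (by norm_num) y h
  · rcases hy with (rfl | h) | h
    · exact hbase (by norm_num)
    · exact hdist (by norm_num) y h
    · exact hdist (by norm_num) y h
  · rcases hy with ((rfl | h) | h) | h
    · exact hbase (by norm_num)
    · exact hdist (by norm_num) y h
    · exact hdist (by norm_num) y h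
    · exact hdist (by norm_num) y h

/-- The 2025 points. -/
def blockPts (v w : ↥leechLattice) : Set ↥leechLattice :=
  {x | sqNorm (x : GolayPt → ℤ) = 32 ∧ dotInt (v : GolayPt → ℤ) (x : GolayPt → ℤ) = 0 ∧
    dotInt (w : GolayPt → ℤ) (x : GolayPt → ℤ) = 16}

theorem smul_blockPts {v w x : ↥leechLattice} (g : ↥Co0) : g • x ∈ blockPts (g • v) (g • w) ↔ x ∈ blockPts v w := by
  simp only [blockPts, Set.mem_setOf_eq, dot_smul, Same.sqNorm_eq (x := x) ⟨g, rfl⟩]

/-- The base point among the 2025. -/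
def blockBase : ↥leechLattice := ⟨toVec SubOrb.mcBlock, mem_of_check (by decide +kernel)⟩

/-- Representatives. -/
def blockRep0 : ↥leechLattice := ⟨toVec SubOrb.mcSub0Start, mem_of_check (by decide +kernel)⟩

/-- Representatives. -/
def blockRep1 : ↥leechLattice := ⟨toVec SubOrb.mcSub1Start, mem_of_check (by decide +kernel)⟩

/-- Representatives. -/
def blockRep2 : ↥leechLattice := ⟨toVec SubOrb.mcSub2Start, mem_of_check (by decide +kernel)⟩

/-- The suborbit classes on 2025 points. -/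
def blockClass (d : ℤ) : Set ↥leechLattice :=
  {y | y ∈ blockPts fourFour vFive ∧ dotInt (blockBase : GolayPt → ℤ) (y : GolayPt → ℤ) = d}

theorem block_rep_facts :
    (sqNorm (blockBase : GolayPt → ℤ) = 32 ∧ dotInt (fourFour : GolayPt → ℤ) (blockBase : GolayPt → ℤ) = 0 ∧
      dotInt (vFive : GolayPt → ℤ) (blockBase : GolayPt → ℤ) = 16) ∧
    (sqNorm (blockRep0 : GolayPt → ℤ) = 32 ∧ dotInt (fourFour : GolayPt → ℤ) (blockRep0 : GolayPt → ℤ) = 0 ∧
      dotInt (vFive : GolayPt → ℤ) (blockRep0 : GolayPt → ℤ) = 16 ∧ dotInt (blockBase : GolayPt → ℤ) (blockRep0 : GolayPt → ℤ) = 0) ∧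
    (sqNorm (blockRep1 : GolayPt → ℤ) = 32 ∧ dotInt (fourFour : GolayPt → ℤ) (blockRep1 : GolayPt → ℤ) = 0 ∧
      dotInt (vFive : GolayPt → ℤ) (blockRep1 : GolayPt → ℤ) = 16 ∧ dotInt (blockBase : GolayPt → ℤ) (blockRep1 : GolayPt → ℤ) = 16) ∧
    (sqNorm (blockRep2 : GolayPt → ℤ) = 32 ∧ dotInt (fourFour : GolayPt → ℤ) (blockRep2 : GolayPt → ℤ) = 0 ∧
      dotInt (vFive : GolayPt → ℤ) (blockRep2 : GolayPt → ℤ) = 16 ∧ dotInt (blockBase : GolayPt → ℤ) (blockRep2 : GolayPt → ℤ) = 8) := by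
  decide +kernel

theorem blockPts_ncard : (blockPts fourFour vFive).ncard = 2025 := by
  have h := mc_block_count
  simp only [Bool.and_eq_true, beq_iff_eq] at h
  refine Eq.trans ?_ h.2
  rw [← census_fast _ 32 _ (by norm_num) _ (by decide) _ h.1, ← ncard_sub
    (fun x => sqNorm x = 32 ∧ dotInt (wTwo (toVec RankOrb.five) (toVec RankOrb.fourFour)) x = 16 + 1000 * 0)]
  congr 1
  ext x
  show _ ∧ _ ∧ _ ↔ _ ∧ _
  rw [← funext vec_eqs.1, ← funext vec_eqs.2.2, dot_wTwo]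
  refine and_congr_right fun hx => ?_
  have h1 := dot_bound (vFive : GolayPt → ℤ) (x : GolayPt → ℤ)
  rw [vFive_shape.1, hx] at h1
  omega

theorem blockClass_ncard : (blockClass 0).ncard = 330 ∧ (blockClass 16).ncard = 462 ∧ (blockClass 8).ncard = 1232 := by
  have h := mc_block_sub_count
  simp only [Bool.and_eq_true, beq_iff_eq] at h
  have key : ∀ d, (blockClass d).ncard = nsum (fun P => cntP (clsOf [-999999, -995999, 1000001, 1004005, 3000001]) 32
      (16 + 1000 * 0 + 1000000 * d) (unpack (clsOf [-999999, -995999, 1000001, 1004005, 3000001]).length P))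
      (fastTable 127211352342132816685092670055383169) := by
    intro d
    rw [← census_fast _ 32 _ (by norm_num) _ (by decide) _ h.1.1.1, ← ncard_sub
      (fun x => sqNorm x = 32 ∧ dotInt (wThree (toVec RankOrb.five) (toVec RankOrb.fourFour) (toVec SubOrb.mcBlock)) x =
        16 + 1000 * 0 + 1000000 * d)]
    congr 1
    ext x
    show (_ ∧ _ ∧ _) ∧ _ ↔ _ ∧ _
    rw [← funext vec_eqs.1, ← funext vec_eqs.2.2, show toVec SubOrb.mcBlock = (blockBase : GolayPt → ℤ) from rfl,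
      dot_wThree, and_assoc]
    refine and_congr_right fun hx => ?_
    have h1 := dot_bound (vFive : GolayPt → ℤ) (x : GolayPt → ℤ)
    have h2 := dot_bound (fourFour : GolayPt → ℤ) (x : GolayPt → ℤ)
    rw [vFive_shape.1, hx] at h1
    rw [rep_facts.1.1, hx] at h2
    omega
  exact ⟨(key _).trans h.1.1.2, (key _).trans h.1.2, (key _).trans h.2⟩

theorem block_trans {y : ↥leechLattice} (hy : y ∈ blockPts fourFour vFive) :
    ∃ g : ↥Co0, g • fourFour = fourFour ∧ g • vFive = vFive ∧ g • blockBase = y := by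
  obtain ⟨g, hg, e⟩ := orbit_fills mc_block_ok (MulAction.stabilizer ↥Co0 vFive ⊓ MulAction.stabilizer ↥Co0 fourFour)
    (gens_fix_pair fix_checks.2.2.1 (funext vec_eqs.1) (funext vec_eqs.2.2) (by rw [vFive_shape.1]; norm_num)
      (by rw [rep_facts.1.1]; norm_num))
    (x := blockBase) rfl (by rw [block_rep_facts.1.1]; norm_num) _ blockPts_ncard
    (fun k hk => by
      have h := (smul_blockPts (v := fourFour) (w := vFive) k).2 (block_rep_facts.1 : blockBase ∈ blockPts fourFour vFive)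
      rwa [MulAction.mem_stabilizer_iff.1 hk.1, MulAction.mem_stabilizer_iff.1 hk.2] at h) y hy
  exact ⟨g, hg.2, hg.1, e⟩

/-- The stabilizer of a point among the 2025. -/
def blockStab : Subgroup ↥Co0 :=
  MulAction.stabilizer ↥Co0 vFive ⊓ MulAction.stabilizer ↥Co0 fourFour ⊓ MulAction.stabilizer ↥Co0 blockBase

theorem block_suborbit {gs : List (List Op)} {T : List (ℕ × ℕ)} {start n : ℕ} (h : orbitOK gs T start n = true)
    (hgs : gs = SubOrb.mcBlockGens) (x : ↥leechLattice) (hx : (x : GolayPt → ℤ) = toVec start) {d : ℤ}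
    (hn : (blockClass d).ncard = n) (hm : x ∈ blockClass d) : MulAction.orbit ↥blockStab x = blockClass d := by
  subst hgs
  have hK : ∀ w ∈ SubOrb.mcBlockGens, wCo w ∈ blockStab := by
    intro w hw
    have h2 := List.all_eq_true.1 mc_sub_fix w hw
    simp only [Bool.and_eq_true] at h2
    exact ⟨⟨wCo_fix h2.1.1.1 (funext vec_eqs.1) (by rw [vFive_shape.1]; norm_num) h2.1.1.2,
      wCo_fix h2.1.1.1 (funext vec_eqs.2.2) (by rw [rep_facts.1.1]; norm_num) h2.1.2⟩,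
      wCo_fix h2.1.1.1 (x := blockBase) rfl (by rw [block_rep_facts.1.1]; norm_num) h2.2⟩
  refine orbit_class h blockStab hK hx (by rw [hm.1.1]; norm_num) _ hn fun k hk => ⟨?_, ?_⟩
  · have h := (smul_blockPts (v := fourFour) (w := vFive) k).2 hm.1
    rwa [MulAction.mem_stabilizer_iff.1 hk.1.1, MulAction.mem_stabilizer_iff.1 hk.1.2] at h
  · rw [← hm.2]
    conv_lhs => rw [← MulAction.mem_stabilizer_iff.1 hk.2]
    rw [dot_smul]

theorem block_suborbits : (MulAction.orbit ↥blockStab blockRep0 = blockClass 0) ∧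
    (MulAction.orbit ↥blockStab blockRep1 = blockClass 16) ∧ (MulAction.orbit ↥blockStab blockRep2 = blockClass 8) := by
  obtain ⟨-, ⟨a1, a2, a3, a4⟩, ⟨b1, b2, b3, b4⟩, c1, c2, c3, c4⟩ := block_rep_facts
  exact ⟨block_suborbit mc_sub0_ok rfl _ rfl blockClass_ncard.1 ⟨⟨a1, a2, a3⟩, a4⟩,
    block_suborbit mc_sub1_ok rfl _ rfl blockClass_ncard.2.1 ⟨⟨b1, b2, b3⟩, b4⟩,
    block_suborbit mc_sub2_ok rfl _ rfl blockClass_ncard.2.2 ⟨⟨c1, c2, c3⟩, c4⟩⟩

end Cfsg.Agent.Lib.Leech
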