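import Cfsg.Agent.Lib.Leech.ConwayStab

/-!
Simplicity of the automorphism group of the lattice modulo its center.
-/

set_option autoImplicit false

namespace Cfsg.Agent.Lib.Leech

open Cfsg Golay
open scoped Pointwise

theorem negCo_mem_center : negCo ∈ Subgroup.center ↥Co0 := Subgroup.mem_center_iff.2 fun h => co_ext fun i => by
  rw [mul_smul, mul_smul, negCo_smul, negCo_smul, smul_neg']

theorem negCo_ne : negCo ≠ 1 := fun e => by
  have h := congrArg (· • e8 none) e
  simp only [negCo_smul, one_smul] at h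
  exact e8_ne_neg none none h.symm

theorem Moves.pow {g : ↥Co0} {ρ : Equiv.Perm GolayPt} (h : Moves g ρ) (m : ℕ) : Moves (g ^ m) (ρ ^ m) := by
  induction m with
  | zero => rw [pow_zero, pow_zero]; exact moves_one
  | succ m ih => rw [pow_succ, pow_succ]; exact ih.mul h

theorem flip_form {f : ↥Co0} (hf : f ∈ flips) : ∃ c : ↥codeFinset, f = mono (c, 1) := by
  obtain ⟨⟨c, σ⟩, rfl⟩ := stab_cases (moves_stab hf)
  obtain rfl : σ = 1 := Subtype.ext (inv_eq_one.1 (Moves.unique hf (moves_mono (c, σ))).symm)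
  exact ⟨c, rfl⟩

theorem flip_const {c : ↥codeFinset} (h : (∀ p, p ∈ (c : Finset GolayPt)) ∨ ∀ p, p ∉ (c : Finset GolayPt)) :
    mono (c, 1) = 1 ∨ mono (c, 1) = negCo := by
  rcases h with h | h
  · right
    refine co_ext fun i => ?_
    rw [mono_e8, if_pos (h i), negCo_smul]; rfl
  · left
    refine co_ext fun i => ?_
    rw [mono_e8, if_neg (h i), one_smul]; rfl

/-- A sign change whose conjugates are sign changes is central. -/
theorem flip_central {f : ↥Co0} (hf : f ∈ flips) (h : g0⁻¹ * f * g0 ∈ flips) : f = 1 ∨ f = negCo := by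
  obtain ⟨c, rfl⟩ := flip_form hf
  have hne : ∀ p, ((g0 • e8 none : ↥leechLattice) : GolayPt → ℤ) p ≠ 0 := fun p e => by
    have := g0_shapes.1 none p
    rw [← g0_apply, e] at this
    omega
  refine flip_const ?_
  have hp : ∀ p, ((mono (c, 1) • g0 • e8 none : ↥leechLattice) : GolayPt → ℤ) p =
      if p ∈ (c : Finset GolayPt) then -((g0 • e8 none : ↥leechLattice) : GolayPt → ℤ) p
      else ((g0 • e8 none : ↥leechLattice) : GolayPt → ℤ) p := fun p => rfl
  rcases h none with e | e <;> simp only [Equiv.Perm.one_apply, mul_smul, inv_smul_eq_iff] at e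
  · right
    intro p hpc
    have := hp p
    rw [e, if_pos hpc] at this
    have := hne p
    omega
  · left
    intro p
    by_contra hpc
    have := hp p
    rw [e, smul_neg', AddSubgroup.coe_neg, Pi.neg_apply, if_neg hpc] at this
    have := hne p
    omega

theorem flips_comm {f g : ↥Co0} (hf : f ∈ flips) (hg : g ∈ flips) : f * g = g * f := by
  have h := flips_sq (mul_mem hf hg)
  calc f * g = f * ((f * g) * (f * g)) * g := by rw [h, mul_one]
    _ = (f * f) * (g * f) * (g * g) := by group
    _ = g * f := by rw [flips_sq hf, flips_sq hg, one_mul, mul_one]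

theorem flips_conj {g f : ↥Co0} {ρ : Equiv.Perm GolayPt} (hg : Moves g ρ) (hf : f ∈ flips) : g * f * g⁻¹ ∈ flips := by
  have h : Moves (g * f * g⁻¹) (ρ * 1 * ρ⁻¹) := (hg.mul hf).mul hg.inv
  rwa [mul_one, mul_inv_cancel] at h

/-- Sign changes commuting with the element of order 23. -/
theorem flip_fixed {σ : ↥M24} (hσ : orderOf σ = 23) (h0 : (σ : Equiv.Perm GolayPt) none = none) {f : ↥Co0}
    (hf : f ∈ flips) (hc : permHom σ * f = f * permHom σ) : f = 1 ∨ f = negCo := by
  classical
  obtain ⟨c, rfl⟩ := flip_form hf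
  have hstep : ∀ i, ((σ : Equiv.Perm GolayPt) i ∈ (c : Finset GolayPt) ↔ i ∈ (c : Finset GolayPt)) := by
    intro i
    have h := congrArg (· • e8 i) hc
    simp only [mul_smul, permHom_e8, mono_e8] at h
    split_ifs at h with h1 h2 h2
    · simp [h1, h2]
    · exfalso
      rw [smul_neg', permHom_e8] at h
      exact e8_ne_neg _ _ h.symm
    · exfalso
      rw [permHom_e8] at h
      exact e8_ne_neg _ _ h
    · simp [h1, h2]
  have hrest : ∀ i j, i ≠ none → j ≠ none → (i ∈ (c : Finset GolayPt) ↔ j ∈ (c : Finset GolayPt)) := by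
    intro i j hi hj
    obtain ⟨k, rfl⟩ := trans_rest hσ h0 hi hj
    induction k using Int.induction_on with
    | zero => simp
    | succ n ih =>
      rw [add_comm, zpow_add, zpow_one, Equiv.Perm.mul_apply, hstep]
      by_cases hn : ((σ : Equiv.Perm GolayPt) ^ (n : ℤ)) i = none
      · exact absurd (hn.trans (Equiv.Perm.zpow_apply_eq_self_of_apply_eq_self h0 _).symm)
          (fun e => hi ((Equiv.injective _) e))
      · exact ih hn
    | pred n ih =>
      rw [sub_eq_neg_add, zpow_add, zpow_neg_one, Equiv.Perm.mul_apply]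
      by_cases hn : ((σ : Equiv.Perm GolayPt) ^ (-(n : ℤ))) i = none
      · exact absurd (hn.trans (Equiv.Perm.zpow_apply_eq_self_of_apply_eq_self h0 _).symm)
          (fun e => hi ((Equiv.injective _) e))
      · refine (ih hn).trans ?_
        have := hstep ((σ : Equiv.Perm GolayPt)⁻¹ (((σ : Equiv.Perm GolayPt) ^ (-(n : ℤ))) i))
        rwa [← Equiv.Perm.mul_apply, mul_inv_cancel, Equiv.Perm.one_apply] at this
  have hcard := card_cases (mem_codeFinset.1 c.2)
  refine flip_const ?_
  obtain ⟨i0, hi0⟩ : ∃ i : GolayPt, i ≠ none := ⟨some 0, Option.some_ne_none 0⟩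
  by_cases h1 : i0 ∈ (c : Finset GolayPt) <;> by_cases h2 : none ∈ (c : Finset GolayPt)
  · left; intro p
    by_cases hp : p = none
    · rwa [hp]
    · exact (hrest i0 p hi0 hp).1 h1
  · exfalso
    have e : (c : Finset GolayPt) = Finset.univ.erase none := Finset.ext fun p => by
      rw [Finset.mem_erase]
      exact ⟨fun h => ⟨fun e => h2 (e ▸ h), Finset.mem_univ _⟩, fun h => (hrest i0 p hi0 h.1).1 h1⟩
    rw [e, Finset.card_erase_of_mem (Finset.mem_univ _), Finset.card_univ, show Fintype.card GolayPt = 24 from rfl] at hcard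
    omega
  · exfalso
    have e : (c : Finset GolayPt) = {none} := Finset.ext fun p => by
      rw [Finset.mem_singleton]
      exact ⟨fun h => by by_contra hp; exact h1 ((hrest i0 p hi0 hp).2 h), fun h => h ▸ h2⟩
    rw [e, Finset.card_singleton] at hcard
    omega
  · right; intro p
    by_cases hp : p = none
    · rwa [hp]
    · exact fun h => h1 ((hrest i0 p hi0 hp).2 h)

/-- The normal subgroups containing the center. -/
theorem normal_cases (N : Subgroup ↥Co0) [N.Normal] (hZ : Subgroup.center ↥Co0 ≤ N) :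
    N = Subgroup.center ↥Co0 ∨ N = ⊤ := by
  classical
  haveI : Fact (Nat.Prime 2) := ⟨Nat.prime_two⟩
  haveI : Finite ↥Co0 := Nat.finite_of_card_ne_zero (by rw [card_Co0]; norm_num)
  obtain ⟨σ, hσ, h0⟩ := exists_sigma
  set s := permHom σ
  have hinj : Function.Injective (permHom : ↥M24 → ↥Co0) := fun x y e => by
    have h1 : permHom (y⁻¹ * x) = 1 := by rw [map_mul, map_inv, e, inv_mul_cancel]
    exact (inv_mul_eq_one.1 (permHom_flips (h1 ▸ Subgroup.one_mem _))).symm
  have hs : orderOf s = 23 := (orderOf_injective permHom hinj σ).trans hσ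
  have h23 : (Nat.card ↥Co0).factorization 23 = 1 := by
    rw [card_Co0]; exact twentythree 361545809264640000 (by norm_num) (by norm_num)
  let L : Subgroup ↥M24 :=
    { carrier := {τ | ∃ n ∈ N, Moves n (τ : Equiv.Perm GolayPt)}
      one_mem' := ⟨1, N.one_mem, moves_one⟩
      mul_mem' := fun ⟨n, hn, h⟩ ⟨m, hm, h'⟩ => ⟨n * m, mul_mem hn hm, h.mul h'⟩
      inv_mem' := fun ⟨n, hn, h⟩ => ⟨n⁻¹, inv_mem hn, h.inv⟩ }
  haveI : L.Normal := ⟨fun τ ⟨n, hn, h⟩ π => ⟨permHom π * n * (permHom π)⁻¹, (inferInstance : N.Normal).conj_mem n hn _,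
    ((moves_permHom π).mul h).mul (moves_permHom π).inv⟩⟩
  haveI := M24_simple
  have hL := (inferInstance : L.Normal).eq_bot_or_eq_top
  by_cases hd : 23 ∣ Nat.card N
  · right
    have hsN : s ∈ N := mem_normal hs h23 N hd
    have hLtop : L = ⊤ := by
      rcases hL with h | h
      · exfalso
        have hm : σ ∈ L := ⟨s, hsN, moves_permHom σ⟩
        rw [h, Subgroup.mem_bot] at hm
        rw [hm, orderOf_one] at hσ
        omega
      · exact h
    have hflips : flips ≤ N := by
      let φ : ↥flips →* ↥flips :=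
        { toFun := fun f => ⟨s * f * s⁻¹ * f⁻¹, mul_mem (flips_conj (moves_permHom σ) f.2) (inv_mem f.2)⟩
          map_one' := Subtype.ext (by simp)
          map_mul' := fun f g => Subtype.ext (by
            show s * ((f : ↥Co0) * g) * s⁻¹ * ((f : ↥Co0) * g)⁻¹ = (s * f * s⁻¹ * (f : ↥Co0)⁻¹) * (s * g * s⁻¹ * (g : ↥Co0)⁻¹)
            have hc := flips_comm (flips_conj (moves_permHom σ) g.2) (inv_mem f.2)
            calc s * ((f : ↥Co0) * g) * s⁻¹ * ((f : ↥Co0) * g)⁻¹
                = s * (f : ↥Co0) * s⁻¹ * ((s * g * s⁻¹) * ((g : ↥Co0)⁻¹ * (f : ↥Co0)⁻¹)) := by group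
              _ = s * (f : ↥Co0) * s⁻¹ * ((s * g * s⁻¹) * ((f : ↥Co0)⁻¹ * (g : ↥Co0)⁻¹)) := by
                  rw [flips_comm (inv_mem g.2) (inv_mem f.2)]
              _ = s * (f : ↥Co0) * s⁻¹ * (((s * g * s⁻¹) * (f : ↥Co0)⁻¹) * (g : ↥Co0)⁻¹) := by group
              _ = s * (f : ↥Co0) * s⁻¹ * (((f : ↥Co0)⁻¹ * (s * g * s⁻¹)) * (g : ↥Co0)⁻¹) := by rw [hc]
              _ = _ := by group) }
      let S := N.subgroupOf flips
      let nc : ↥flips := ⟨negCo, negCo_flips⟩
      have hrange : φ.range ≤ S := by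
        rintro _ ⟨f, rfl⟩
        show s * (f : ↥Co0) * s⁻¹ * (f : ↥Co0)⁻¹ ∈ N
        rw [show s * (f : ↥Co0) * s⁻¹ * (f : ↥Co0)⁻¹ = s * ((f : ↥Co0) * s⁻¹ * (f : ↥Co0)⁻¹) by group]
        exact mul_mem hsN ((inferInstance : N.Normal).conj_mem _ (inv_mem hsN) _)
      have hker : Nat.card φ.ker ≤ 2 := by
        rw [← SetLike.coe_sort_coe, Nat.card_coe_set_eq]
        refine (Set.ncard_le_ncard (t := {1, nc}) (fun f hf => ?_)).trans ((Set.ncard_insert_le _ _).trans (by simp))
        have hc : s * (f : ↥Co0) = (f : ↥Co0) * s :=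
          mul_inv_eq_iff_eq_mul.1 (mul_inv_eq_one.1 (congrArg Subtype.val (MonoidHom.mem_ker.1 hf)))
        rcases flip_fixed hσ h0 f.2 hc with e | e
        · exact Or.inl (Subtype.ext e)
        · exact Or.inr (Subtype.ext e)
      have hnr : nc ∉ φ.range := by
        rintro ⟨f, hf⟩
        have h1 : s * (f : ↥Co0) * s⁻¹ = negCo * (f : ↥Co0) := mul_inv_eq_iff_eq_mul.1 (congrArg Subtype.val hf)
        have h2 : ∀ m : ℕ, s ^ m * (f : ↥Co0) * (s ^ m)⁻¹ = negCo ^ m * (f : ↥Co0) := fun m => by
          induction m with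
          | zero => simp
          | succ m ih =>
            have hcz := Subgroup.mem_center_iff.1 (pow_mem negCo_mem_center m)
            calc s ^ (m + 1) * (f : ↥Co0) * (s ^ (m + 1))⁻¹ = s * (s ^ m * (f : ↥Co0) * (s ^ m)⁻¹) * s⁻¹ := by
                  rw [pow_succ']; group
              _ = negCo ^ m * (s * (f : ↥Co0) * s⁻¹) := by rw [ih, ← mul_assoc s, hcz s]; group
              _ = negCo ^ (m + 1) * (f : ↥Co0) := by rw [h1, pow_succ, mul_assoc]
        have h3 := h2 23
        rw [← hs, pow_orderOf_eq_one, inv_one, mul_one, one_mul, hs] at h3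
        have hsq : negCo ^ 2 = 1 := by rw [pow_two]; exact flips_sq negCo_flips
        rw [show (23 : ℕ) = 2 * 11 + 1 from rfl, pow_succ, pow_mul, hsq, one_pow, one_mul] at h3
        exact negCo_ne (right_eq_mul.1 h3)
      have hmul : Nat.card φ.range * Nat.card φ.ker = 4096 := by
        rw [← Subgroup.index_ker, mul_comm, Subgroup.card_mul_index, card_flips]
      have hlt : Nat.card φ.range < Nat.card S := by
        by_contra hh
        exact hnr ((Subgroup.eq_of_le_of_card_ge hrange (not_lt.1 hh)) ▸ (hZ negCo_mem_center : nc ∈ S))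
      have hS : S = ⊤ := by
        apply Subgroup.eq_top_of_card_eq
        have hd' := Subgroup.card_subgroup_dvd_card S
        rw [card_flips] at hd' ⊢
        have h2048 : 2048 < Nat.card S := by
          have : 4096 ≤ Nat.card φ.range * 2 := hmul.symm.le.trans (Nat.mul_le_mul_left _ hker)
          omega
        obtain ⟨t, ht⟩ := hd'
        rcases Nat.lt_or_ge t 2 with h | h
        · interval_cases t <;> omega
        · have := Nat.mul_le_mul_left (Nat.card S) h
          omega
      intro f hf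
      have : (⟨f, hf⟩ : ↥flips) ∈ S := hS ▸ Subgroup.mem_top _
      exact this
    refine eq_top_iff.2 fun g _ => ?_
    obtain ⟨m, hm, hgm⟩ := exists_norm hs h23 N hsN g
    obtain ⟨τ, hτ, -⟩ := split (normalizer_le hσ h0 hgm)
    obtain ⟨n, hn, hnτ⟩ : τ ∈ L := hLtop ▸ Subgroup.mem_top τ
    have h1 : n⁻¹ * (g * m) ∈ flips := by
      have := hnτ.inv.mul hτ
      rwa [inv_mul_cancel] at this
    have h2 := mul_mem (mul_mem hn (hflips h1)) (inv_mem hm)
    rwa [show n * (n⁻¹ * (g * m)) * m⁻¹ = g by group] at h2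
  · left
    have hLbot : L = ⊥ := by
      refine hL.resolve_right fun h => hd ?_
      obtain ⟨n, hn, hnσ⟩ : σ ∈ L := h ▸ Subgroup.mem_top σ
      have h2 := hnσ.pow (orderOf n)
      rw [pow_orderOf_eq_one] at h2
      have hdd : orderOf σ ∣ orderOf n := orderOf_dvd_of_pow_eq_one (Subtype.ext (h2.unique moves_one))
      rw [hσ] at hdd
      have := orderOf_dvd_natCard (⟨n, hn⟩ : ↥N)
      rw [Subgroup.orderOf_mk] at this
      exact hdd.trans this
    have hmono : ∀ x ∈ N, x • cross0 = cross0 → x ∈ flips := by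
      intro x hx hxc
      obtain ⟨τ, hτ, -⟩ := split hxc
      have hm : τ ∈ L := ⟨x, hx, hτ⟩
      rw [hLbot, Subgroup.mem_bot] at hm
      rw [hm] at hτ
      exact hτ
    have hfix : ∀ x ∈ N, x * s = s * x → x * x = 1 := fun x hx hxs =>
      flips_sq (hmono x hx (normalizer_le hσ h0 (g := x) (by
        rw [mul_assoc, ← hxs, inv_mul_cancel_left]; exact Subgroup.mem_zpowers s)))
    have hp := is_two_group hs h23 (by rw [card_Co0]; norm_num) N hd hfix
    set M := MulAction.stabilizer ↥Co0 cross0 with hM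
    have hNM : N ≤ M := by
      obtain ⟨P⟩ : Nonempty (Sylow 2 ↥M) := inferInstance
      have hcardP : Nat.card ((P : Subgroup ↥M).map M.subtype) = 2 ^ (Nat.card ↥Co0).factorization 2 := by
        rw [Nat.card_congr ((P : Subgroup ↥M).equivMapOfInjective M.subtype M.subtype_injective).toEquiv.symm,
          P.card_eq_multiplicity]
        congr 1
        rw [hM, card_stab, card_Co0]
        have e1 : (4096 * 244823040 : ℕ) = 2 ^ 22 * 239085 := by norm_num
        rw [e1, show (8315553613086720000 : ℕ) = 2 ^ 22 * 1982582476875 by norm_num,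
          Nat.factorization_mul (by norm_num) (by norm_num), Nat.factorization_mul (by norm_num) (by norm_num)]
        simp only [Finsupp.add_apply]
        rw [Nat.factorization_eq_zero_of_not_dvd (by norm_num : ¬ 2 ∣ 239085),
          Nat.factorization_eq_zero_of_not_dvd (by norm_num : ¬ 2 ∣ 1982582476875)]
      let S : Sylow 2 ↥Co0 := Sylow.ofCard ((P : Subgroup ↥M).map M.subtype) hcardP
      have h := IsPGroup.to_sup_of_normal_right S.2 hp
      have hle : N ≤ (S : Subgroup ↥Co0) := le_sup_right.trans (S.3 h le_sup_left).le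
      exact hle.trans (Subgroup.map_subtype_le _)
    refine le_antisymm (fun f hf => ?_) hZ
    have hcj : g0⁻¹ * f * g0 ∈ N := (inferInstance : N.Normal).conj_mem' f hf g0
    rcases flip_central (hmono f hf (hNM hf)) (hmono _ hcj (hNM hcj)) with e | e
    · rw [e]; exact Subgroup.one_mem _
    · rw [e]; exact negCo_mem_center

end Cfsg.Agent.Lib.Leech
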