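import Cfsg.Agent.Lib.Leech.Index
import Cfsg.Agent.Lib.Leech.Census

/-!
Every class modulo twice the lattice has a short representative.
-/

namespace Cfsg.Agent.Lib.Leech

open Cfsg Golay Finset

theorem exists_half {G : Type*} [DecidableEq G] [InvolutiveNeg G] (S : Finset G) :
    ∃ D ⊆ S, (∀ x ∈ S, x ∈ D ∨ -x ∈ D) ∧ ∀ x ∈ D, ∀ y ∈ D, y = -x → y = x := by
  induction S using Finset.induction with
  | empty => exact ⟨∅, Subset.rfl, by simp, by simp⟩
  | insert a S ha ih =>
    obtain ⟨D, hD, h1, h2⟩ := ih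
    by_cases hn : -a ∈ D
    · refine ⟨D, hD.trans (subset_insert _ _), fun x hx => ?_, h2⟩
      rcases mem_insert.1 hx with rfl | hx
      · exact Or.inr hn
      · exact h1 x hx
    · refine ⟨insert a D, insert_subset_insert a hD, fun x hx => ?_, ?_⟩
      · rcases mem_insert.1 hx with rfl | hx
        · exact Or.inl (mem_insert_self _ _)
        · exact (h1 x hx).imp (mem_insert_of_mem) (mem_insert_of_mem)
      · intro x hx y hy e
        rcases mem_insert.1 hx with ex | hx <;> rcases mem_insert.1 hy with ey | hy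
        · rw [ex, ey]
        · exact absurd (by rw [← ex, ← e]; exact hy) hn
        · exact absurd (by rw [← ey, e, neg_neg]; exact hx) hn
        · exact h2 x hx y hy e

theorem card_orth_le (D : Finset (GolayPt → ℤ)) (h0 : ∀ x ∈ D, dotInt x x ≠ 0)
    (h : ∀ x ∈ D, ∀ y ∈ D, x ≠ y → dotInt x y = 0) : D.card ≤ 24 := by
  have hli : LinearIndependent ℤ (fun x : ↥D => (x : GolayPt → ℤ)) := by
    rw [Fintype.linearIndependent_iff]
    intro g hg j
    have e : ∑ p, (∑ i, g i • (i : GolayPt → ℤ)) p * (j : GolayPt → ℤ) p = 0 := by rw [hg]; simp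
    simp only [Finset.sum_apply, Pi.smul_apply, smul_eq_mul, Finset.sum_mul] at e
    rw [Finset.sum_comm, Finset.sum_eq_single j] at e
    · simp only [mul_assoc, ← Finset.mul_sum] at e
      exact (mul_eq_zero.1 e).resolve_right (h0 _ j.2)
    · intro i _ hij
      simp only [mul_assoc, ← Finset.mul_sum]
      have := h _ i.2 _ j.2 fun e' => hij (Subtype.ext e')
      simp only [dotInt] at this
      rw [this, mul_zero]
    · simp
  have := hli.fintype_card_le_finrank
  rw [Module.finrank_pi, Fintype.card_coe] at this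
  exact this.trans (le_of_eq rfl)

theorem dot_self (x : GolayPt → ℤ) : dotInt x x = sqNorm x := Finset.sum_congr rfl fun i _ => (pow_two _).symm

theorem covering (v : GolayPt → ℤ) (hv : v ∈ leechLattice) :
    ∃ y ∈ leechLattice, sqNorm y ≤ 64 ∧ ∃ z ∈ leechLattice, v - y = 2 • z := by
  classical
  let Q := ↥leechLattice ⧸ twoLattice
  let φ : (GolayPt → ℤ) → Q := fun x => if h : x ∈ leechLattice then QuotientAddGroup.mk ⟨x, h⟩ else 0
  have hQ : Nat.card Q = 2 ^ 24 := index_twoLattice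
  haveI : Finite Q := Nat.finite_of_card_ne_zero (by rw [hQ]; norm_num)
  haveI : Fintype Q := Fintype.ofFinite Q
  have hfin : ∀ N : ℤ, N = 0 ∨ N = 32 ∨ N = 48 ∨ N = 64 → ∃ S : Finset (GolayPt → ℤ),
      (∀ x, x ∈ S ↔ x ∈ leechLattice ∧ sqNorm x = N) ∧ S.card = total (fun _ => true) N := by
    intro N hN
    have hc := census_all N (by omega)
    have hf : {x : GolayPt → ℤ | x ∈ leechLattice ∧ sqNorm x = N}.Finite := by
      refine Set.finite_of_ncard_pos ?_
      rw [hc]
      rcases hN with rfl | rfl | rfl | rfl <;> decide +kernel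
    exact ⟨hf.toFinset, fun x => hf.mem_toFinset, by rw [← Set.ncard_eq_toFinset_card _ hf, hc]⟩
  have hcongr : ∀ x y : GolayPt → ℤ, x ∈ leechLattice → y ∈ leechLattice → sqNorm x ≤ 64 → sqNorm y ≤ 64 → φ x = φ y →
      x = y ∨ x = -y ∨ (sqNorm x = 64 ∧ sqNorm y = 64 ∧ dotInt x y = 0) := by
    intro x y hx hy hxn hyn e
    simp only [φ, dif_pos hx, dif_pos hy] at e
    exact short_congr hy hxn hyn (mk_eq_iff.1 e)
  have hnorm : ∀ x y : GolayPt → ℤ, x ∈ leechLattice → y ∈ leechLattice → sqNorm x ≤ 64 → sqNorm y ≤ 64 → φ x = φ y →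
      sqNorm x = sqNorm y := fun x y hx hy hxn hyn e => by
    rcases hcongr x y hx hy hxn hyn e with h | h | h
    · rw [h]
    · rw [h]; simp [sqNorm]
    · omega
  obtain ⟨S0, h0, c0⟩ := hfin 0 (Or.inl rfl)
  obtain ⟨S1, h1, c1⟩ := hfin 32 (Or.inr (Or.inl rfl))
  obtain ⟨S2, h2, c2⟩ := hfin 48 (Or.inr (Or.inr (Or.inl rfl)))
  obtain ⟨S3, h3, c3⟩ := hfin 64 (Or.inr (Or.inr (Or.inr rfl)))
  have pair : ∀ S : Finset (GolayPt → ℤ), ∀ N, N < 64 → (∀ x, x ∈ S ↔ x ∈ leechLattice ∧ sqNorm x = N) →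
      S.card ≤ 2 * (S.image φ).card := by
    intro S N hN hS
    refine card_le_mul_card_image (f := φ) S 2 fun q hq => ?_
    obtain ⟨x, hx, rfl⟩ := mem_image.1 hq
    refine (card_le_card (?_ : _ ⊆ ({x, -x} : Finset (GolayPt → ℤ)))).trans (card_le_two)
    intro y hy
    rw [mem_filter] at hy
    obtain ⟨hx1, hx2⟩ := (hS x).1 hx
    obtain ⟨hy1, hy2⟩ := (hS y).1 hy.1
    rcases hcongr y x hy1 hx1 (by omega) (by omega) hy.2 with h | h | h
    · simp [h]
    · simp [h]
    · omega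
  have frames : S3.card ≤ 48 * (S3.image φ).card := by
    refine card_le_mul_card_image (f := φ) S3 48 fun q _ => ?_
    obtain ⟨D, hD, hD1, hD2⟩ := exists_half (S3.filter fun y => φ y = q)
    have hm : ∀ x ∈ D, (x ∈ leechLattice ∧ sqNorm x = 64) ∧ φ x = q := fun x hx =>
      ⟨(h3 x).1 (mem_filter.1 (hD hx)).1, (mem_filter.1 (hD hx)).2⟩
    have hle : D.card ≤ 24 := by
      refine card_orth_le D (fun x hx => by rw [dot_self, (hm x hx).1.2]; norm_num) fun x hx y hy hne => ?_
      rcases hcongr x y (hm x hx).1.1 (hm y hy).1.1 (hm x hx).1.2.le (hm y hy).1.2.le ((hm x hx).2.trans (hm y hy).2.symm) with h | h | h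
      · exact absurd h hne
      · exact absurd (hD2 y hy x hx h) hne
      · exact h.2.2
    refine (card_le_card (?_ : _ ⊆ D ∪ D.image Neg.neg)).trans ((card_union_le _ _).trans ?_)
    · intro x hx
      rcases hD1 x hx with h | h
      · exact mem_union_left _ h
      · exact mem_union_right _ (mem_image.2 ⟨-x, h, neg_neg x⟩)
    · have := card_image_le (s := D) (f := Neg.neg)
      omega
  have disj : ∀ S T : Finset (GolayPt → ℤ), ∀ a b : ℤ, a ≠ b → a ≤ 64 → b ≤ 64 → (∀ x, x ∈ S ↔ x ∈ leechLattice ∧ sqNorm x = a) →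
      (∀ x, x ∈ T ↔ x ∈ leechLattice ∧ sqNorm x = b) → Disjoint (S.image φ) (T.image φ) := by
    intro S T a b hab ha hb hS hT
    refine disjoint_left.2 fun q hq hq' => ?_
    obtain ⟨x, hx, rfl⟩ := mem_image.1 hq
    obtain ⟨y, hy, e⟩ := mem_image.1 hq'
    obtain ⟨hx1, hx2⟩ := (hS x).1 hx
    obtain ⟨hy1, hy2⟩ := (hT y).1 hy
    have := hnorm y x hy1 hx1 (by omega) (by omega) e
    omega
  have e0 : 1 ≤ (S0.image φ).card := card_pos.2 ⟨φ 0, mem_image_of_mem _ ((h0 0).2 ⟨zero_mem _, by simp [sqNorm]⟩)⟩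
  have e1 := pair S1 32 (by norm_num) h1
  have e2 := pair S2 48 (by norm_num) h2
  have t1 : total (fun _ => true) 32 = 196560 := by decide +kernel
  have t2 : total (fun _ => true) 48 = 16773120 := by decide +kernel
  have t3 : total (fun _ => true) 64 = 398034000 := by decide +kernel
  have hU : (((S0.image φ ∪ S1.image φ) ∪ S2.image φ) ∪ S3.image φ) = univ := by
    apply eq_univ_of_card
    refine le_antisymm (card_le_univ _) ?_
    rw [← Nat.card_eq_fintype_card, hQ,
      card_union_of_disjoint (disjoint_union_left.2 ⟨disjoint_union_left.2 ⟨disj _ _ 0 64 (by norm_num) (by norm_num) le_rfl h0 h3,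
        disj _ _ 32 64 (by norm_num) (by norm_num) le_rfl h1 h3⟩, disj _ _ 48 64 (by norm_num) (by norm_num) le_rfl h2 h3⟩),
      card_union_of_disjoint (disjoint_union_left.2 ⟨disj _ _ 0 48 (by norm_num) (by norm_num) (by norm_num) h0 h2,
        disj _ _ 32 48 (by norm_num) (by norm_num) (by norm_num) h1 h2⟩),
      card_union_of_disjoint (disj _ _ 0 32 (by norm_num) (by norm_num) (by norm_num) h0 h1)]
    omega
  have hsplit : φ v ∈ (((S0.image φ ∪ S1.image φ) ∪ S2.image φ) ∪ S3.image φ) := hU ▸ mem_univ _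
  simp only [mem_union, mem_image] at hsplit
  have fin : ∀ y, y ∈ leechLattice → sqNorm y ≤ 64 → φ y = φ v → ∃ y ∈ leechLattice, sqNorm y ≤ 64 ∧ ∃ z ∈ leechLattice, v - y = 2 • z := by
    intro y hy hn e
    simp only [φ, dif_pos hy, dif_pos hv] at e
    exact ⟨y, hy, hn, mk_eq_iff.1 e.symm⟩
  rcases hsplit with ((⟨y, hy, e⟩ | ⟨y, hy, e⟩) | ⟨y, hy, e⟩) | ⟨y, hy, e⟩
  · exact fin y ((h0 y).1 hy).1 (by rw [((h0 y).1 hy).2]; norm_num) e
  · exact fin y ((h1 y).1 hy).1 (by rw [((h1 y).1 hy).2]; norm_num) e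
  · exact fin y ((h2 y).1 hy).1 (by rw [((h2 y).1 hy).2]; norm_num) e
  · exact fin y ((h3 y).1 hy).1 (by rw [((h3 y).1 hy).2]) e

end Cfsg.Agent.Lib.Leech
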