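import Cfsg.Agent.Lib.Leech.SmallClass
import Cfsg.Agent.Lib.Leech.Sylow23
import Mathlib.GroupTheory.PGroup

/-!
The stabilizer of the standard cross is a maximal subgroup.
-/

set_option autoImplicit false
set_option maxRecDepth 10000

namespace Cfsg.Agent.Lib.Leech

open Cfsg Golay
open scoped Pointwise Classical

theorem classOf_self {v : ↥leechLattice} (hv : sqNorm (v : GolayPt → ℤ) = 64) : v ∈ classOf v := ⟨hv, Cong.refl v⟩

theorem classOf_of_mem {v w : ↥leechLattice} (h : v ∈ classOf w) : classOf v = classOf w := classOf_congr h.2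

theorem orbit_class {C : Set ↥leechLattice} (h : C ∈ MulAction.orbit ↥Co0 cross0) :
    ∃ v : ↥leechLattice, sqNorm (v : GolayPt → ℤ) = 64 ∧ C = classOf v := by
  obtain ⟨g, rfl⟩ := h
  refine ⟨g • e8 none, (Same.sqNorm_eq ⟨g, rfl⟩).trans (sqNorm_e8 none), ?_⟩
  show g • cross0 = _
  rw [← smul_classOf, classOf_e8]

/-- Stabilizers of order at most `N` on an invariant set. -/
theorem pow_dvd_ncard {X : Type} [MulAction ↥Co0 X] (P : Subgroup ↥Co0) (hP : Nat.card ↥P = 4096)
    {S : Set X} (hS : S.Finite) (hinv : ∀ g ∈ P, ∀ x ∈ S, g • x ∈ S) (j : ℕ)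
    (hst : ∀ x ∈ S, Nat.card (MulAction.stabilizer ↥P x) * 2 ^ j ≤ 4096) : 2 ^ j ∣ S.ncard := by
  let Y : SubMulAction ↥P X := { carrier := S, smul_mem' := fun g x hx => hinv g g.2 x hx }
  haveI : Finite ↥P := Nat.finite_of_card_ne_zero (by rw [hP]; norm_num)
  haveI : Finite ↥Y := hS.to_subtype
  haveI := Fintype.ofFinite (Quotient (MulAction.orbitRel ↥P ↥Y))
  show _ ∣ Nat.card ↥Y
  rw [Nat.card_congr (MulAction.selfEquivSigmaOrbits ↥P ↥Y), Nat.card_sigma]
  refine Finset.dvd_sum fun q _ => ?_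
  have h := MulAction.orbitEquivQuotientStabilizer ↥P (Quotient.out q)
  have hc := Subgroup.card_eq_card_quotient_mul_card_subgroup (MulAction.stabilizer ↥P (Quotient.out q))
  rw [← Nat.card_congr h, hP] at hc
  have e : MulAction.stabilizer ↥P (Quotient.out q) = MulAction.stabilizer ↥P ((Quotient.out q : ↥Y) : X) := by
    ext g
    simp only [MulAction.mem_stabilizer_iff]
    exact ⟨fun e => congrArg Subtype.val e, fun e => Subtype.ext e⟩
  have hle := hst _ (Quotient.out q).2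
  rw [← e] at hle
  set o := Nat.card ↑(MulAction.orbit ↥P (Quotient.out q))
  obtain ⟨i, hi, ho⟩ := (Nat.dvd_prime_pow Nat.prime_two).1 (show o ∣ 2 ^ 12 from ⟨_, hc.trans rfl⟩)
  have hpos : 0 < Nat.card (MulAction.stabilizer ↥P (Quotient.out q)) := Nat.card_pos
  have h2 : 2 ^ j ≤ 2 ^ i := by
    rw [ho, mul_comm] at hc
    exact Nat.le_of_mul_le_mul_left (hle.trans hc.le) hpos
  rw [ho]
  exact pow_dvd_pow 2 ((Nat.pow_le_pow_iff_right (by norm_num)).1 h2)

/-- A `p`-element without fixed points on an invariant set. -/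
theorem prime_dvd_ncard {X : Type} [MulAction ↥Co0 X] {p : ℕ} (hp : p.Prime) {y : ↥Co0} (hy : orderOf y = p)
    {S : Set X} (hS : S.Finite) (hinv : ∀ x ∈ S, y • x ∈ S) (hfix : ∀ x ∈ S, y • x ≠ x) : p ∣ S.ncard := by
  haveI := Fact.mk hp
  have hpow : ∀ n : ℕ, ∀ x ∈ S, y ^ n • x ∈ S := fun n => by
    induction n with
    | zero => intro x hx; rwa [pow_zero, one_smul]
    | succ n ih => intro x hx; rw [pow_succ, mul_smul]; exact ih _ (hinv x hx)
  have hfo : IsOfFinOrder y := orderOf_pos_iff.1 (hy.symm ▸ hp.pos)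
  let Y : SubMulAction ↥(Subgroup.zpowers y) X :=
    { carrier := S
      smul_mem' := fun g x hx => by
        obtain ⟨n, hn⟩ := hfo.mem_powers_iff_mem_zpowers.2 g.2
        show (g : ↥Co0) • x ∈ S
        rw [← hn]
        exact hpow n x hx }
  haveI : Finite ↥Y := hS.to_subtype
  have hpg : IsPGroup p ↥(Subgroup.zpowers y) := IsPGroup.of_card (n := 1) (by rw [Nat.card_zpowers, hy, pow_one])
  have h := hpg.card_modEq_card_fixedPoints ↥Y
  have h0 : IsEmpty ↥(MulAction.fixedPoints ↥(Subgroup.zpowers y) ↥Y) :=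
    ⟨fun ⟨⟨x, hx⟩, he⟩ => hfix x hx (congrArg Subtype.val (he ⟨y, Subgroup.mem_zpowers y⟩))⟩
  rw [Nat.card_of_isEmpty (α := ↥(MulAction.fixedPoints ↥(Subgroup.zpowers y) ↥Y)), Nat.modEq_zero_iff_dvd] at h
  exact h

theorem mono_flip (c : ↥codeFinset) : mono (c, 1) = flipCo c (mem_codeFinset.1 c.2) :=
  co_ext fun i => by rw [mono_e8, flip_e8]; rfl

theorem flip_mem_flips {g : ↥Co0} (hg : g ∈ flips) : ∃ c : ↥codeFinset, g = flipCo c (mem_codeFinset.1 c.2) := by
  obtain ⟨⟨c, σ⟩, rfl⟩ := stab_cases (moves_stab hg)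
  obtain rfl : σ = 1 := Subtype.ext (inv_eq_one.1 (hg.unique (moves_mono (c, σ))).symm)
  exact ⟨c, mono_flip c⟩

theorem stab_le {v : ↥leechLattice} (hv : sqNorm (v : GolayPt → ℤ) = 64) (N : ℕ)
    (h : (codeFinset.filter fun c => ∃ hc : c ∈ codeSets, Cong (flipCo c hc • v) v).card ≤ N) :
    Nat.card (MulAction.stabilizer ↥flips (classOf v)) ≤ N := by
  refine le_trans ?_ h
  rw [← Nat.card_eq_finsetCard]
  choose f hf using fun g : ↥flips => flip_mem_flips g.2
  refine Nat.card_le_card_of_injective (fun g => ⟨f g.1, Finset.mem_filter.2 ⟨(f g.1).2, mem_codeFinset.1 (f g.1).2, ?_⟩⟩) ?_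
  · have hg : (g.1 : ↥Co0) • classOf v = classOf v := MulAction.mem_stabilizer_iff.1 g.2
    rw [hf g.1] at hg
    exact (hg.le ⟨v, classOf_self hv, rfl⟩).2
  · intro a b hab
    refine Subtype.ext (Subtype.ext ?_)
    rw [hf a.1, hf b.1]
    exact congr_arg (fun c : ↥codeFinset => flipCo c (mem_codeFinset.1 c.2))
      (Subtype.ext (Subtype.mk.inj hab))

theorem odd_class {v w : ↥leechLattice} (h : Cong v w) : (v : GolayPt → ℤ) none % 2 = (w : GolayPt → ℤ) none % 2 := by
  obtain ⟨z, hz⟩ := h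
  have := congrArg (fun t : ↥leechLattice => (t : GolayPt → ℤ) none) hz
  simp only [AddSubgroup.coe_sub, AddSubgroup.coe_add, Pi.sub_apply, Pi.add_apply] at this
  omega

theorem perm_fixed {σ : ↥M24} (hσ : orderOf σ = 23) (h0 : (σ : Equiv.Perm GolayPt) none = none)
    {C : Set ↥leechLattice} (hC : C ∈ MulAction.orbit ↥Co0 cross0) (hfix : permHom σ • C = C) : C = cross0 := by
  obtain ⟨w, hw, rfl⟩ := orbit_class hC
  have hfin : (classOf w).Finite := Set.finite_of_ncard_pos (by rw [classOf, class_card w hw]; norm_num)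
  have ho : orderOf (permHom σ) = 23 := by
    rw [← hσ]
    refine orderOf_injective permHom (fun a b h => ?_) σ
    rw [← inv_mul_eq_one]
    refine permHom_flips ?_
    rw [map_mul, map_inv, h, inv_mul_cancel]
    exact flips.one_mem
  obtain ⟨v, hv, hvf⟩ : ∃ v ∈ classOf w, permHom σ • v = v := by
    by_contra! h
    have := prime_dvd_ncard (by norm_num : Nat.Prime 23) ho hfin (fun x hx => hfix.le ⟨x, hx, rfl⟩) h
    rw [classOf, class_card w hw] at this
    norm_num at this
  rw [← classOf_of_mem hv, ← classOf_e8]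
  refine classOf_congr ?_
  have hb := fixed_vec hσ h0 hvf
  obtain ⟨j, hj⟩ : ∃ j : GolayPt, j ≠ none := ⟨some 0, Option.some_ne_none _⟩
  have hn := hv.1
  simp only [sqNorm] at hn
  rw [← Finset.add_sum_erase _ _ (Finset.mem_univ none), Finset.sum_congr rfl (g := fun _ => ((v : GolayPt → ℤ) j) ^ 2)
    (fun i hi => by rw [hb i j (Finset.mem_erase.1 hi).1 hj]), Finset.sum_const, Finset.card_erase_of_mem (Finset.mem_univ _),
    Finset.card_univ, show Fintype.card GolayPt = 24 from rfl, nsmul_eq_mul] at hn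
  set a := (v : GolayPt → ℤ) none with ha
  set b := (v : GolayPt → ℤ) j with hbdef
  push_cast at hn
  have hbb : b = 0 := by
    have h1 : b ≤ 1 := by nlinarith
    have h2 : -1 ≤ b := by nlinarith
    rcases (show b = 0 ∨ b = 1 ∨ b = -1 by omega) with e | e | e
    · exact e
    all_goals
      exfalso
      rw [e] at hn
      have h3 : a ≤ 7 := by nlinarith
      have h4 : -7 ≤ a := by nlinarith
      interval_cases a <;> norm_num at hn
  rw [hbb] at hn
  have hrest : ∀ i, i ≠ none → (v : GolayPt → ℤ) i = 0 := fun i hi => (hb i j hi hj).trans hbb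
  have hext : ∀ u : ↥leechLattice, (u : GolayPt → ℤ) none = a → (∀ i, i ≠ none → (u : GolayPt → ℤ) i = 0) → v = u := by
    intro u h1 h2
    refine Subtype.ext (funext fun i => ?_)
    by_cases hi : i = none
    · subst hi; exact h1.symm
    · rw [hrest i hi, h2 i hi]
  rcases (show a = 8 ∨ a = -8 from sq_eq_sq_iff_eq_or_eq_neg.1 (by linarith)) with e | e
  · rw [hext (e8 none) (by rw [coe_e8, Pi.single_eq_same, e]) (fun i hi => by rw [coe_e8, Pi.single_eq_of_ne hi])]
    exact Cong.refl _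
  · rw [hext (-e8 none) (by rw [AddSubgroup.coe_neg, Pi.neg_apply, coe_e8, Pi.single_eq_same, e])
      (fun i hi => by rw [AddSubgroup.coe_neg, Pi.neg_apply, coe_e8, Pi.single_eq_of_ne hi, neg_zero])]
    exact cong_neg _

theorem perm_stab (σ : Equiv.Perm GolayPt) (hσ : σ ∈ M24) : permCo σ hσ • cross0 = cross0 :=
  mem_stab_cross0.2 (by rw [perm_e8]; exact cong_e8 _)

theorem num_cases : ∀ a ∈ [1, 3, 9, 27, 81, 243, 729], ∀ b ∈ [1, 5, 25, 125], ∀ c ∈ [1, 7, 13, 91],
    (a * b * c) % 23 = 1 → a * b * c = 1 ∨ a * b * c = 8292375 ∨ ((a * b * c - 1) % 32 ≠ 0 ∧ a * b * c < 47104) := by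
  decide +kernel

/-- The stabilizer of the standard cross is maximal. -/
theorem stab_cross0_maximal : IsCoatom (MulAction.stabilizer ↥Co0 cross0) := by
  obtain ⟨σ, hσ, h0⟩ := exists_sigma
  constructor
  · intro h
    have hg : g0 • cross0 = cross0 := MulAction.mem_stabilizer_iff.1 (h ▸ Subgroup.mem_top g0)
    have h1 := odd_class (mem_stab_cross0.1 hg)
    rw [g0_apply, g0_shapes.1, coe_e8, Pi.single_eq_same] at h1
    norm_num at h1
  intro H hH
  obtain ⟨hle, -⟩ := lt_iff_le_not_ge.1 hH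
  obtain ⟨h, hhH, hh⟩ := SetLike.exists_of_lt hH
  set O := MulAction.orbit ↥H cross0
  have hOsub : O ⊆ MulAction.orbit ↥Co0 cross0 := fun C ⟨k, hk⟩ => ⟨(k : ↥Co0), hk⟩
  have hcard : (MulAction.orbit ↥Co0 cross0).ncard = 8292375 := by have := ncard_orbit; omega
  have hfinCo : (MulAction.orbit ↥Co0 cross0).Finite := Set.finite_of_ncard_pos (by rw [hcard]; norm_num)
  have hOfin : O.Finite := hfinCo.subset hOsub
  have hclosed : ∀ k ∈ H, ∀ C ∈ O, k • C ∈ O := fun k hk C hC => MulAction.mapsTo_smul_orbit ⟨k, hk⟩ cross0 hC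
  have hMcard := card_stab
  have hHcard : Nat.card ↥H = O.ncard * Nat.card (MulAction.stabilizer ↥Co0 cross0) := by
    have e : Nat.card (MulAction.stabilizer ↥H cross0) = Nat.card (MulAction.stabilizer ↥Co0 cross0) :=
      Nat.card_congr ⟨fun g => ⟨((g : ↥H) : ↥Co0), g.2⟩, fun g => ⟨⟨g, hle g.2⟩, g.2⟩, fun _ => rfl, fun _ => rfl⟩
    rw [← e, ← MulAction.index_stabilizer, mul_comm, Subgroup.card_mul_index]
  haveI : Finite ↥Co0 := Nat.finite_of_card_ne_zero (by rw [card_Co0]; norm_num)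
  set d := O.ncard with hd
  have hdvd : d ∣ 8292375 := by
    have h1 := Subgroup.card_subgroup_dvd_card H
    rw [hHcard, card_Co0, hMcard, show (8315553613086720000 : ℕ) = 8292375 * (4096 * 244823040) by norm_num] at h1
    exact Nat.dvd_of_mul_dvd_mul_right (by norm_num) h1
  have h0O : cross0 ∈ O := MulAction.mem_orbit_self _
  have hne1 : d ≠ 1 := fun e => by
    obtain ⟨C, hC⟩ := Set.ncard_eq_one.1 e
    have h1 : h • cross0 ∈ O := hclosed h hhH _ h0O
    rw [hC, Set.mem_singleton_iff] at h1 h0O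
    exact hh (MulAction.mem_stabilizer_iff.2 (h1.trans h0O.symm))
  have hρ : permHom σ ∈ MulAction.stabilizer ↥Co0 cross0 := moves_stab (moves_permHom σ)
  have ho : orderOf (permHom σ) = 23 := by
    rw [← hσ]
    refine orderOf_injective permHom (fun a b h => ?_) σ
    rw [← inv_mul_eq_one]
    refine permHom_flips ?_
    rw [map_mul, map_inv, h, inv_mul_cancel]
    exact flips.one_mem
  have hS : (O \ {cross0}).ncard = d - 1 := Set.ncard_sdiff_singleton_of_mem h0O
  have h23 : 23 ∣ d - 1 := hS ▸ prime_dvd_ncard (by norm_num) ho hOfin.sdiff (fun C hC => ⟨hclosed _ (hle hρ) C hC.1, fun e => hC.2 (by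
      rw [Set.mem_singleton_iff] at e ⊢
      exact (MulAction.injective (permHom σ)) (e.trans hρ.symm))⟩)
    (fun C hC e => hC.2 (perm_fixed hσ h0 (hOsub hC.1) e))
  have hd0 : 0 < d := (Set.ncard_pos hOfin).2 ⟨_, h0O⟩
  obtain ⟨ab, c, hab, hc, habc⟩ := Nat.dvd_mul.1 (show d ∣ (729 * 125) * 91 from hdvd)
  obtain ⟨a, b, ha, hb, rfl⟩ := Nat.dvd_mul.1 hab
  rcases num_cases a (by
      have : ∀ n < 730, n ∣ 729 → n ∈ [1, 3, 9, 27, 81, 243, 729] := by decide +kernel
      exact this a (Nat.lt_succ_of_le (Nat.le_of_dvd (by norm_num) ha)) ha) b (by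
      have : ∀ n < 126, n ∣ 125 → n ∈ [1, 5, 25, 125] := by decide +kernel
      exact this b (Nat.lt_succ_of_le (Nat.le_of_dvd (by norm_num) hb)) hb) c (by
      have : ∀ n < 92, n ∣ 91 → n ∈ [1, 7, 13, 91] := by decide +kernel
      exact this c (Nat.lt_succ_of_le (Nat.le_of_dvd (by norm_num) hc)) hc) (by rw [habc]; omega) with e | e | ⟨e1, e2⟩
  · exact absurd (habc ▸ e) hne1
  · refine Subgroup.eq_top_of_card_eq H ?_
    rw [hHcard, card_Co0, hMcard, ← habc, e]
  exfalso
  rw [habc] at e1 e2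
  have hxi : xiCo ∈ H := by
    by_contra hxi
    have : 2 ^ 5 ∣ (O \ {cross0}).ncard := by
      refine pow_dvd_ncard flips card_flips hOfin.sdiff (fun g hg C hC => ⟨hclosed g (hle (flips_le hg)) C hC.1, fun e => hC.2 ?_⟩) 5 ?_
      · rw [Set.mem_singleton_iff] at e ⊢
        exact MulAction.injective g (e.trans (flips_le hg).symm)
      intro C hC
      obtain ⟨v, hv, rfl⟩ := orbit_class (hOsub hC.1)
      suffices Nat.card (MulAction.stabilizer ↥flips (classOf v)) ≤ 128 by omega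
      refine stab_le hv 128 ?_
      by_contra! hbig
      rcases small_class v hv _ (Finset.filter_subset _ _) hbig (fun c hc hcK => (Finset.mem_filter.1 hcK).2.2) with e | ⟨g, hg, e⟩
      · exact hC.2 e
      · have h1 : g⁻¹ • classOf v ∈ O := hclosed _ (inv_mem (hle (MulAction.mem_stabilizer_iff.2 hg))) _ hC.1
        rw [e, inv_smul_smul] at h1
        obtain ⟨⟨k, hk⟩, hk'⟩ := h1
        have h2 : xiCo⁻¹ * k ∈ MulAction.stabilizer ↥Co0 cross0 := by
          rw [MulAction.mem_stabilizer_iff, mul_smul, inv_smul_eq_iff]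
          exact hk'
        have h3 := mul_mem hk (inv_mem (hle h2))
        rw [mul_inv_rev, inv_inv, mul_inv_cancel_left] at h3
        exact hxi h3
    rw [hS] at this
    omega
  have hg0 : g0 ∈ H := by
    have hp : permCo (toPerm genT) genT_mem ∈ H := hle (MulAction.mem_stabilizer_iff.2 (perm_stab _ _))
    exact mul_mem (mul_mem (mul_mem (mul_mem hxi hp) hxi) hp) hxi
  set S := {C ∈ O | ∃ v ∈ C, (v : GolayPt → ℤ) none % 2 = 1}
  have hSfin : S.Finite := hOfin.subset fun C hC => hC.1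
  have h11 : 2 ^ 11 ∣ S.ncard := by
    refine pow_dvd_ncard flips card_flips hSfin (fun g hg C hC => ?_) 11 ?_
    · obtain ⟨hC1, v, hv, hv2⟩ := hC
      refine ⟨hclosed g (hle (flips_le hg)) C hC1, g • v, ⟨v, hv, rfl⟩, ?_⟩
      obtain ⟨c, rfl⟩ := flip_mem_flips hg
      show (if none ∈ (c : Finset GolayPt) then -(v : GolayPt → ℤ) none else (v : GolayPt → ℤ) none) % 2 = 1
      split_ifs <;> omega
    · rintro C ⟨hC1, v, hv, hv2⟩
      obtain ⟨w, hw, rfl⟩ := orbit_class (hOsub hC1)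
      rw [← classOf_of_mem hv]
      suffices Nat.card (MulAction.stabilizer ↥flips (classOf v)) ≤ 2 by omega
      refine stab_le hv.1 2 ((Finset.card_le_card (t := {∅, Finset.univ}) fun c hc => ?_).trans Finset.card_le_two)
      obtain ⟨-, hc', hcong⟩ := Finset.mem_filter.1 hc
      rcases odd_fix hv2 hcong with e | e <;> simp [e]
  have h23' : 23 ∣ S.ncard := by
    refine prime_dvd_ncard (by norm_num) ho hSfin (fun C hC => ?_) (fun C hC e => ?_)
    · obtain ⟨hC1, v, hv, hv2⟩ := hC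
      refine ⟨hclosed _ (hle hρ) C hC1, permHom σ • v, ⟨v, hv, rfl⟩, ?_⟩
      show (v : GolayPt → ℤ) ((σ : Equiv.Perm GolayPt)⁻¹ none) % 2 = 1
      rwa [show (σ : Equiv.Perm GolayPt)⁻¹ none = none from Equiv.symm_apply_eq _ |>.2 h0.symm]
    · obtain ⟨hC1, v, hv, hv2⟩ := hC
      have := perm_fixed hσ h0 (hOsub hC1) e
      rw [this, mem_cross0] at hv
      rw [odd_class hv.2, coe_e8, Pi.single_eq_same] at hv2
      norm_num at hv2
  have hSpos : 0 < S.ncard := (Set.ncard_pos hSfin).2 ⟨g0 • cross0, hclosed g0 hg0 _ h0O, g0 • e8 none,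
    ⟨e8 none, Or.inl ⟨none, rfl⟩, rfl⟩, by rw [g0_apply]; exact g0_shapes.1 none none⟩
  have := Nat.le_of_dvd hSpos (Nat.Coprime.mul_dvd_of_dvd_of_dvd (by norm_num) h11 h23')
  have := Set.ncard_le_ncard (show S ⊆ O from fun C hC => hC.1) hOfin
  omega

end Cfsg.Agent.Lib.Leech
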