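import Mathlib

/-!
Congruence classes of short vectors modulo two in an even lattice without roots.
-/

set_option autoImplicit false

namespace Cfsg.Agent.Lib.Leech.Even

open Matrix Finset

/-- The integral lattices of rank 24 that are positive, even and free of roots, with the counts of short vectors. -/
structure Data (B : Matrix (Fin 24) (Fin 24) ℤ) : Prop where
  symm : B.IsSymm
  pos : ∀ x : Fin 24 → ℤ, x ≠ 0 → 0 < x ⬝ᵥ (B *ᵥ x)
  even : ∀ x : Fin 24 → ℤ, (2 : ℤ) ∣ x ⬝ᵥ (B *ᵥ x)
  noRoot : ∀ x : Fin 24 → ℤ, x ⬝ᵥ (B *ᵥ x) ≠ 2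
  c4 : {x : Fin 24 → ℤ | x ⬝ᵥ (B *ᵥ x) = 4}.ncard = 196560
  c6 : {x : Fin 24 → ℤ | x ⬝ᵥ (B *ᵥ x) = 6}.ncard = 16773120
  c8 : {x : Fin 24 → ℤ | x ⬝ᵥ (B *ᵥ x) = 8}.ncard = 398034000

/-- Inner product. -/
abbrev ip (B : Matrix (Fin 24) (Fin 24) ℤ) (x y : Fin 24 → ℤ) : ℤ := x ⬝ᵥ (B *ᵥ y)

/-- Reduction modulo two. -/
def red (x : Fin 24 → ℤ) : Fin 24 → ZMod 2 := fun i => (x i : ZMod 2)

theorem red_eq_iff (x y : Fin 24 → ℤ) : red x = red y ↔ ∀ i, (2 : ℤ) ∣ (x - y) i := by
  rw [funext_iff]
  refine forall_congr' fun i => ?_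
  rw [red, red, ZMod.intCast_eq_intCast_iff_dvd_sub, Nat.cast_ofNat, Pi.sub_apply]
  exact ⟨fun h => by simpa using h.neg_right, fun h => by simpa using h.neg_right⟩

theorem red_eq_exists {x y : Fin 24 → ℤ} (h : red x = red y) : ∃ z, x = y + (2 : ℤ) • z := by
  choose z hz using (red_eq_iff x y).1 h
  exact ⟨z, funext fun i => by have := hz i; simp only [Pi.sub_apply] at this; simp [Pi.add_apply]; omega⟩

variable {B : Matrix (Fin 24) (Fin 24) ℤ} (hB : Data B)

include hB

theorem ip_comm (a b : Fin 24 → ℤ) : ip B a b = ip B b a := by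
  rw [ip, Matrix.dotProduct_mulVec, dotProduct_comm, ← Matrix.mulVec_transpose, hB.symm.eq]

theorem min4 {a : Fin 24 → ℤ} (ha : a ≠ 0) : 4 ≤ ip B a a := by
  have := hB.pos a ha; have := hB.even a; have := hB.noRoot a; simp only [ip]; omega

theorem ip_expand (y z : Fin 24 → ℤ) (c : ℤ) :
    ip B (y + c • z) (y + c • z) = ip B y y + 2 * c * ip B y z + c * c * ip B z z := by
  have h := ip_comm hB z y
  simp only [ip, Matrix.mulVec_add, Matrix.mulVec_smul, dotProduct_add, add_dotProduct, dotProduct_smul,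
    smul_dotProduct, smul_eq_mul] at h ⊢
  rw [h]; ring

theorem congr_cases {x y : Fin 24 → ℤ} (hx : ip B x x ≤ 8) (hy : ip B y y ≤ 8) (h : red x = red y) :
    x = y ∨ x = -y ∨ (ip B x x = 8 ∧ ip B y y = 8 ∧ ip B x y = 0) := by
  obtain ⟨z, rfl⟩ := red_eq_exists h
  by_cases h1 : z = 0
  · left; rw [h1, smul_zero, add_zero]
  by_cases h3 : y + z = 0
  · right; left
    rw [show z = -y from eq_neg_of_add_eq_zero_right h3, two_smul]; abel
  right; right
  have q1 := min4 hB h1
  have q2 := min4 hB h3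
  have e1 := ip_expand hB y z 2
  have e2 := ip_expand hB y z 1
  rw [one_smul] at e2
  have e3 : ip B (y + (2 : ℤ) • z) y = ip B y y + 2 * ip B y z := by
    simp only [ip, add_dotProduct, smul_dotProduct, smul_eq_mul]
    rw [show z ⬝ᵥ (B *ᵥ y) = y ⬝ᵥ (B *ᵥ z) from ip_comm hB z y]
  rw [e1] at hx ⊢
  rw [e3]
  omega

theorem red_ne_zero {x : Fin 24 → ℤ} (h0 : x ≠ 0) (hx : ip B x x ≤ 8) : red x ≠ 0 := by
  intro h
  have h' : red x = red 0 := h.trans (funext fun i => by simp [red])
  have hz0 : ip B (0 : Fin 24 → ℤ) 0 ≤ 8 := by simp [ip]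
  rcases congr_cases hB hx hz0 h' with e | e | ⟨-, e, -⟩
  · exact h0 e
  · exact h0 (by simpa using e)
  · simp [ip] at e

theorem orth_card_le (P : Finset (Fin 24 → ℤ)) (hne : ∀ v ∈ P, ip B v v ≠ 0)
    (horth : ∀ v ∈ P, ∀ w ∈ P, v ≠ w → ip B v w = 0) : P.card ≤ 24 := by
  classical
  let BQ : Matrix (Fin 24) (Fin 24) ℚ := B.map (Int.castRingHom ℚ)
  let emb : (Fin 24 → ℤ) → (Fin 24 → ℚ) := fun v i => (v i : ℚ)
  have hcast : ∀ v w, emb v ⬝ᵥ (BQ *ᵥ emb w) = ((ip B v w : ℤ) : ℚ) := fun v w => by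
    simp only [emb, BQ, ip, dotProduct, Matrix.mulVec, Matrix.map_apply, Int.coe_castRingHom]
    push_cast; rfl
  have hli : LinearIndependent ℚ (fun v : ↥P => emb v.1) := by
    rw [Fintype.linearIndependent_iff]
    intro g hg v
    have h := congrArg (fun u => u ⬝ᵥ (BQ *ᵥ emb v.1)) hg
    simp only [sum_dotProduct, smul_dotProduct, hcast, zero_dotProduct] at h
    rw [Finset.sum_eq_single v (fun w _ hw => by
      rw [horth w.1 w.2 v.1 v.2 (fun e => hw (Subtype.ext e))]; simp) (fun h => absurd (Finset.mem_univ _) h)] at h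
    exact (mul_eq_zero.1 h).resolve_right (by exact_mod_cast hne v.1 v.2)
  have := hli.fintype_card_le_finrank
  simpa using this

theorem fibre_bound (S : Finset (Fin 24 → ℤ)) (n : ℤ) (hn : n = 4 ∨ n = 6 ∨ n = 8) (hS : ∀ x ∈ S, ip B x x = n)
    (r : Fin 24 → ZMod 2) : (S.filter fun x => red x = r).card ≤ if n = 8 then 48 else 2 := by
  classical
  set F := S.filter fun x => red x = r
  have hF : ∀ x ∈ F, ∀ y ∈ F, x = y ∨ x = -y ∨ (n = 8 ∧ ip B x y = 0) := fun x hx y hy => by
    obtain ⟨hx1, hx2⟩ := Finset.mem_filter.1 hx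
    obtain ⟨hy1, hy2⟩ := Finset.mem_filter.1 hy
    have hn8 : n ≤ 8 := by omega
    rcases congr_cases hB (by rw [hS x hx1]; exact hn8) (by rw [hS y hy1]; exact hn8) (hx2.trans hy2.symm) with
      h | h | ⟨h, -, h'⟩
    exacts [Or.inl h, Or.inr (Or.inl h), Or.inr (Or.inr ⟨by rw [← hS x hx1, h], h'⟩)]
  by_cases h8 : n = 8
  · rw [if_pos h8]
    let key : (Fin 24 → ℤ) → ℕ := Encodable.encode
    let P := F.filter fun v => key v < key (-v) ∨ -v ∉ F
    have hsub : F ⊆ P ∪ P.image Neg.neg := fun v hv => by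
      by_cases h : key v < key (-v) ∨ -v ∉ F
      · exact Finset.mem_union_left _ (Finset.mem_filter.2 ⟨hv, h⟩)
      · push Not at h
        refine Finset.mem_union_right _ (Finset.mem_image.2 ⟨-v, Finset.mem_filter.2 ⟨h.2, Or.inl ?_⟩, neg_neg v⟩)
        rw [neg_neg]
        refine lt_of_le_of_ne h.1 fun e => ?_
        have e' := Encodable.encode_injective e
        have h0 : v = 0 := funext fun i => by
          have := congrFun e' i; simp only [Pi.neg_apply] at this; simp only [Pi.zero_apply]; omega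
        have := hS v (Finset.mem_filter.1 hv).1
        rw [h0] at this
        simp [ip] at this
        omega
    have hP : P.card ≤ 24 := by
      refine orth_card_le hB P (fun v hv => ?_) fun v hv w hw hne => ?_
      · rw [hS v (Finset.mem_filter.1 (Finset.mem_filter.1 hv).1).1]; omega
      · obtain ⟨hvF, hv'⟩ := Finset.mem_filter.1 hv
        obtain ⟨hwF, hw'⟩ := Finset.mem_filter.1 hw
        rcases hF v hvF w hwF with h | h | ⟨-, h⟩
        · exact absurd h hne
        · exfalso
          subst h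
          rw [neg_neg] at hv'
          rcases hv' with hv' | hv'
          · rcases hw' with hw' | hw'
            · omega
            · exact hw' hvF
          · exact hv' hwF
        · exact h
    calc F.card ≤ (P ∪ P.image Neg.neg).card := Finset.card_le_card hsub
      _ ≤ P.card + (P.image Neg.neg).card := Finset.card_union_le _ _
      _ ≤ P.card + P.card := Nat.add_le_add_left Finset.card_image_le _
      _ ≤ 48 := by omega
  · rw [if_neg h8]
    rcases F.eq_empty_or_nonempty with h | ⟨x, hx⟩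
    · simp [h]
    · refine le_trans (Finset.card_le_card (t := {x, -x}) fun y hy => ?_) Finset.card_le_two
      rcases hF y hy x hx with h | h | ⟨h, -⟩
      · simp [h]
      · simp [h]
      · exact absurd h h8

theorem class48 {x : Fin 24 → ℤ} (hx : ip B x x = 8) : {y : Fin 24 → ℤ | ip B y y = 8 ∧ red y = red x}.ncard = 48 := by
  classical
  set S4 := (Set.finite_of_ncard_pos (s := {x : Fin 24 → ℤ | ip B x x = 4}) (by rw [hB.c4]; norm_num)).toFinset with hS4
  set S6 := (Set.finite_of_ncard_pos (s := {x : Fin 24 → ℤ | ip B x x = 6}) (by rw [hB.c6]; norm_num)).toFinset with hS6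
  set S8 := (Set.finite_of_ncard_pos (s := {x : Fin 24 → ℤ | ip B x x = 8}) (by rw [hB.c8]; norm_num)).toFinset with hS8
  have m4 : ∀ y ∈ S4, ip B y y = 4 := fun y hy => by rw [hS4, Set.Finite.mem_toFinset] at hy; exact hy
  have m6 : ∀ y ∈ S6, ip B y y = 6 := fun y hy => by rw [hS6, Set.Finite.mem_toFinset] at hy; exact hy
  have m8 : ∀ y ∈ S8, ip B y y = 8 := fun y hy => by rw [hS8, Set.Finite.mem_toFinset] at hy; exact hy
  have n4 : S4.card = 196560 := (Set.ncard_eq_toFinset_card _ _).symm.trans hB.c4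
  have n6 : S6.card = 16773120 := (Set.ncard_eq_toFinset_card _ _).symm.trans hB.c6
  have n8 : S8.card = 398034000 := (Set.ncard_eq_toFinset_card _ _).symm.trans hB.c8
  have k4 := Finset.card_le_mul_card_image (f := red) S4 2 fun r _ => fibre_bound hB S4 4 (Or.inl rfl) m4 r
  have k6 := Finset.card_le_mul_card_image (f := red) S6 2 fun r _ => fibre_bound hB S6 6 (Or.inr (Or.inl rfl)) m6 r
  have hfib := fun r => fibre_bound hB S8 8 (Or.inr (Or.inr rfl)) m8 r
  simp only [if_pos] at hfib
  have k8 := Finset.card_le_mul_card_image (f := red) S8 48 fun r _ => hfib r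
  rw [n4] at k4; rw [n6] at k6; rw [n8] at k8
  have hdis : ∀ (S T : Finset (Fin 24 → ℤ)) (a b : ℤ), a ≠ b → a ≤ 8 → b ≤ 8 → (∀ y ∈ S, ip B y y = a) →
      (∀ y ∈ T, ip B y y = b) → Disjoint (S.image red) (T.image red) := by
    intro S T a b hab ha hb hS hT
    rw [Finset.disjoint_left]
    intro r h1 h2
    obtain ⟨u, hu, rfl⟩ := Finset.mem_image.1 h1
    obtain ⟨v, hv, e⟩ := Finset.mem_image.1 h2
    rcases congr_cases hB (by rw [hS u hu]; exact ha) (by rw [hT v hv]; exact hb) e.symm with h | h | ⟨h, h', -⟩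
    · exact hab (by rw [← hS u hu, ← hT v hv, h])
    · exact hab (by rw [← hS u hu, ← hT v hv, h]; simp [ip, Matrix.mulVec_neg])
    · exact hab (by rw [← hS u hu, ← hT v hv, h, h'])
  have hU : (S4.image red ∪ S6.image red ∪ S8.image red).card ≤ 16777215 := by
    refine le_trans (Finset.card_le_card (t := (univ : Finset (Fin 24 → ZMod 2)).erase 0) fun r hr => ?_) ?_
    · refine Finset.mem_erase.2 ⟨?_, Finset.mem_univ _⟩
      have key : ∀ (S : Finset (Fin 24 → ℤ)) (a : ℤ), 0 < a → a ≤ 8 → (∀ y ∈ S, ip B y y = a) → r ∈ S.image red → r ≠ 0 := by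
        intro S a ha ha' hS h
        obtain ⟨u, hu, rfl⟩ := Finset.mem_image.1 h
        refine red_ne_zero hB (fun e => ?_) (by rw [hS u hu]; exact ha')
        have := hS u hu
        rw [e] at this
        simp [ip] at this
        omega
      rcases Finset.mem_union.1 hr with h | h
      · rcases Finset.mem_union.1 h with h | h
        exacts [key _ 4 (by norm_num) (by norm_num) m4 h, key _ 6 (by norm_num) (by norm_num) m6 h]
      · exact key _ 8 (by norm_num) le_rfl m8 h
    · rw [Finset.card_erase_of_mem (Finset.mem_univ _), Finset.card_univ, Fintype.card_fun, ZMod.card, Fintype.card_fin]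
      norm_num
  rw [Finset.card_union_of_disjoint (Finset.disjoint_union_left.2
      ⟨hdis _ _ 4 8 (by norm_num) (by norm_num) le_rfl m4 m8, hdis _ _ 6 8 (by norm_num) (by norm_num) le_rfl m6 m8⟩),
    Finset.card_union_of_disjoint (hdis _ _ 4 6 (by norm_num) (by norm_num) (by norm_num) m4 m6)] at hU
  have himg : (S8.image red).card = 8292375 := by omega
  have hsum := Finset.card_eq_sum_card_image red S8
  have hxS : x ∈ S8 := (Set.Finite.mem_toFinset _).2 hx
  have hall : ∀ r ∈ S8.image red, (S8.filter fun y => red y = r).card = 48 := by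
    refine (Finset.sum_eq_sum_iff_of_le fun r _ => hfib r).1 ?_
    rw [← hsum, n8, Finset.sum_const, himg, smul_eq_mul]
  rw [← hall (red x) (Finset.mem_image_of_mem _ hxS), ← Set.ncard_coe_finset]
  congr 1
  ext y
  simp only [Finset.coe_filter, Set.mem_setOf_eq, hS8, Set.Finite.mem_toFinset]

end Cfsg.Agent.Lib.Leech.Even
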