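import Cfsg.Agent.Lib.Leech.EvenClasses

/-!
Coordinates at a frame of an even lattice without roots, and the binary code attached to them.
-/

set_option autoImplicit false

namespace Cfsg.Agent.Lib.Leech.Even

open Matrix Finset

variable {B : Matrix (Fin 24) (Fin 24) ℤ}

/-- The vectors `8δ` and the coordinates at a frame. -/
structure Coords (B : Matrix (Fin 24) (Fin 24) ℤ) (ι : Type) [Fintype ι] [DecidableEq ι] where
  /-- the coordinates -/
  φ : (Fin 24 → ℤ) →+ (ι → ℤ)
  dot : ∀ v w, ∑ i, φ v i * φ w i = 8 * ip B v w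
  inj : Function.Injective φ
  single : ∀ i, ∃ v, φ v = Pi.single i 8
  diff : ∀ i j, ∃ v, φ v = Pi.single i 4 - Pi.single j 4
  parity : ∀ v i j, (2 : ℤ) ∣ φ v i - φ v j

theorem exists_frame (hB : Data B) : Nonempty (Coords B (Fin 24)) := by
  classical
  obtain ⟨x, hx⟩ : {x : Fin 24 → ℤ | x ⬝ᵥ (B *ᵥ x) = 8}.Nonempty :=
    Set.nonempty_of_ncard_ne_zero (by rw [hB.c8]; norm_num)
  have h48 := class48 hB (x := x) hx
  set F := (Set.finite_of_ncard_pos (s := {y : Fin 24 → ℤ | ip B y y = 8 ∧ red y = red x}) (by rw [h48]; norm_num)).toFinset with hFdef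
  have hF : ∀ y, y ∈ F ↔ ip B y y = 8 ∧ red y = red x := fun y => by rw [hFdef, Set.Finite.mem_toFinset]; rfl
  have hFc : F.card = 48 := (Set.ncard_eq_toFinset_card _ _).symm.trans h48
  have hne0 : ∀ y ∈ F, y ≠ -y := fun y hy e => by
    have h0 : y = 0 := funext fun i => by
      have := congrFun e i; simp only [Pi.neg_apply] at this; simp only [Pi.zero_apply]; omega
    have := ((hF y).1 hy).1
    rw [h0] at this
    simp [ip] at this
  have hneg : ∀ y ∈ F, -y ∈ F := fun y hy => by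
    obtain ⟨h1, h2⟩ := (hF y).1 hy
    refine (hF _).2 ⟨by simpa [ip, Matrix.mulVec_neg] using h1, ?_⟩
    rw [← h2]
    funext i
    simp [red, CharTwo.neg_eq]
  let key : (Fin 24 → ℤ) → ℕ := Encodable.encode
  let P := F.filter fun v => key v < key (-v)
  have hPF : ∀ v ∈ P, v ∈ F := fun v hv => (Finset.mem_filter.1 hv).1
  have horth : ∀ v ∈ P, ∀ w ∈ P, v ≠ w → ip B v w = 0 := by
    intro v hv w hw hne
    obtain ⟨v1, v2⟩ := (hF v).1 (hPF v hv)
    obtain ⟨w1, w2⟩ := (hF w).1 (hPF w hw)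
    rcases congr_cases hB v1.le w1.le (v2.trans w2.symm) with h | h | ⟨-, -, h⟩
    · exact absurd h hne
    · exfalso
      have a := (Finset.mem_filter.1 hv).2
      have b := (Finset.mem_filter.1 hw).2
      rw [h, neg_neg] at a
      omega
    · exact h
  have hPc : P.card = 24 := by
    refine le_antisymm (orth_card_le hB P (fun v hv => by rw [((hF v).1 (hPF v hv)).1]; norm_num) horth) ?_
    have hsub : F ⊆ P ∪ P.image Neg.neg := fun v hv => by
      by_cases h : key v < key (-v)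
      · exact Finset.mem_union_left _ (Finset.mem_filter.2 ⟨hv, h⟩)
      · refine Finset.mem_union_right _ (Finset.mem_image.2 ⟨-v, Finset.mem_filter.2 ⟨hneg v hv, ?_⟩, neg_neg v⟩)
        rw [neg_neg]
        exact lt_of_le_of_ne (not_lt.1 h) fun e => hne0 v hv (Encodable.encode_injective e).symm
    have := (Finset.card_le_card hsub).trans ((Finset.card_union_le _ _).trans (Nat.add_le_add_left Finset.card_image_le _))
    omega
  let en := (P.equivFinOfCardEq hPc).symm
  let e : Fin 24 → (Fin 24 → ℤ) := fun i => (en i).1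
  have heF : ∀ i, ip B (e i) (e i) = 8 ∧ red (e i) = red x := fun i => (hF _).1 (hPF _ (en i).2)
  have heo : ∀ i j, ip B (e i) (e j) = if i = j then 8 else 0 := fun i j => by
    split_ifs with h
    · rw [h]; exact (heF j).1
    · exact horth _ (en i).2 _ (en j).2 fun h' => h (en.injective (Subtype.ext h'))
  let E : Matrix (Fin 24) (Fin 24) ℤ := Matrix.of e
  have hphi : ∀ v i, ((E * B) *ᵥ v) i = ip B (e i) v := fun v i => by
    rw [← Matrix.mulVec_mulVec]; rfl
  have hE : E * B * Eᵀ = (8 : ℤ) • (1 : Matrix (Fin 24) (Fin 24) ℤ) := by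
    ext i j
    rw [show (E * B * Eᵀ) i j = ((E * B) *ᵥ e j) i from rfl, hphi, heo]
    simp [Matrix.one_apply, Matrix.smul_apply]
  have hE' : Eᵀ * (E * B) = (8 : ℤ) • (1 : Matrix (Fin 24) (Fin 24) ℤ) := by
    let q : Matrix (Fin 24) (Fin 24) ℤ →+* Matrix (Fin 24) (Fin 24) ℚ := (Int.castRingHom ℚ).mapMatrix
    have hq : Function.Injective q := Matrix.map_injective Int.cast_injective
    have h8 : q ((8 : ℤ) • 1) = (8 : ℚ) • 1 := by rw [map_zsmul, map_one, ← Int.cast_smul_eq_zsmul ℚ]; norm_num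
    have h1 : ((1 / 8 : ℚ) • q (E * B)) * q Eᵀ = 1 := by
      rw [smul_mul_assoc, ← map_mul, hE, h8, smul_smul]; norm_num
    have h2 := mul_eq_one_comm.1 h1
    rw [mul_smul_comm, ← map_mul] at h2
    refine hq ?_
    rw [h8, ← h2, smul_smul]; norm_num
  refine ⟨⟨AddMonoidHom.mk' (fun v => (E * B) *ᵥ v) (fun a b => Matrix.mulVec_add _ a b), fun v w => ?_, ?_, fun i => ?_, fun i j => ?_, fun v i j => ?_⟩⟩
  · show ((E * B) *ᵥ v) ⬝ᵥ ((E * B) *ᵥ w) = _
    rw [Matrix.dotProduct_mulVec, ← Matrix.mulVec_transpose, Matrix.mulVec_mulVec,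
      show (E * B)ᵀ * (E * B) = (8 : ℤ) • B by rw [Matrix.transpose_mul, hB.symm.eq, mul_assoc, hE', mul_smul_comm, mul_one],
      Matrix.smul_mulVec, smul_dotProduct, smul_eq_mul, dotProduct_comm]
    exact congrArg (8 * ·) (ip_comm hB w v)
  · intro v w h
    have h' := congrArg (fun u => Eᵀ *ᵥ u) h
    simp only [AddMonoidHom.mk'_apply, Matrix.mulVec_mulVec, hE', Matrix.smul_mulVec, Matrix.one_mulVec] at h'
    funext k
    have := congrFun h' k
    simp only [Pi.smul_apply, smul_eq_mul] at this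
    omega
  · refine ⟨e i, funext fun k => ?_⟩
    show ((E * B) *ᵥ e i) k = _
    rw [hphi, heo, Pi.single_apply]
  · obtain ⟨z, hz⟩ := red_eq_exists ((heF i).2.trans (heF j).2.symm)
    refine ⟨z, funext fun k => ?_⟩
    show ((E * B) *ᵥ z) k = _
    have h := congrArg (fun u => ip B (e k) u) hz
    simp only [ip, Matrix.mulVec_add, Matrix.mulVec_smul, dotProduct_add, dotProduct_smul, smul_eq_mul] at h
    have h1 := heo k i
    have h2 := heo k j
    simp only [ip] at h1 h2
    rw [h1, h2] at h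
    rw [hphi, Pi.sub_apply, Pi.single_apply, Pi.single_apply]
    show e k ⬝ᵥ (B *ᵥ z) = _
    split_ifs at h ⊢ <;> omega
  · obtain ⟨z, hz⟩ := red_eq_exists ((heF i).2.trans (heF j).2.symm)
    show (2 : ℤ) ∣ ((E * B) *ᵥ v) i - ((E * B) *ᵥ v) j
    rw [hphi, hphi, hz]
    simp only [ip, add_dotProduct, smul_dotProduct, smul_eq_mul, add_sub_cancel_left]
    exact dvd_mul_right _ _

variable {ι : Type} [Fintype ι] [DecidableEq ι]

namespace Coords

/-- Renaming the coordinates. -/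
def reindex {κ : Type} [Fintype κ] [DecidableEq κ] (e : ι ≃ κ) (D : Coords B ι) : Coords B κ where
  φ := AddMonoidHom.mk' (fun v k => D.φ v (e.symm k)) (fun a b => funext fun k => by rw [map_add]; rfl)
  dot v w := (Equiv.sum_comp e.symm fun i => D.φ v i * D.φ w i).trans (D.dot v w)
  inj v w h := D.inj (funext fun i => by simpa using congrFun h (e i))
  single k := by
    obtain ⟨v, hv⟩ := D.single (e.symm k)
    exact ⟨v, funext fun l => by simp [hv, Pi.single_apply]⟩
  diff k l := by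
    obtain ⟨v, hv⟩ := D.diff (e.symm k) (e.symm l)
    exact ⟨v, funext fun m => by simp [hv, Pi.single_apply]⟩
  parity v k l := D.parity v _ _

variable (D : Coords B ι)

theorem sq (v : Fin 24 → ℤ) : ∑ i, D.φ v i ^ 2 = 8 * ip B v v := by
  rw [← D.dot]; exact Finset.sum_congr rfl fun i _ => pow_two _

theorem pow_single (v : ι → ℤ) : v = ∑ i, Pi.single i (v i) := (Finset.univ_sum_single v).symm

/-- The vectors `4d` with even coordinate sum. -/
theorem four_mem {d : ι → ℤ} (hd : (2 : ℤ) ∣ ∑ i, d i) : ∃ v, D.φ v = fun i => 4 * d i := by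
  show (fun i => 4 * d i) ∈ D.φ.range
  rcases isEmpty_or_nonempty ι with h | ⟨⟨o⟩⟩
  · exact ⟨0, funext fun i => h.elim i⟩
  obtain ⟨k, hk⟩ := hd
  have h : (fun i => 4 * d i) = (∑ i, d i • (Pi.single i (4 : ℤ) - Pi.single o (4 : ℤ))) + k • Pi.single o (8 : ℤ) := by
    funext j
    simp only [Pi.add_apply, Finset.sum_apply, Pi.smul_apply, Pi.sub_apply, smul_eq_mul, mul_sub, Finset.sum_sub_distrib,
      ← Finset.sum_mul, hk]
    simp only [Pi.single_apply, mul_ite, mul_zero, Finset.sum_ite_eq, Finset.mem_univ, if_true]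
    split_ifs <;> ring
  rw [h]
  exact add_mem (sum_mem fun i _ => D.φ.range.zsmul_mem (D.diff i o) _) (D.φ.range.zsmul_mem (D.single o) _)

theorem min32 (hB : Data B) {v : Fin 24 → ℤ} (h : D.φ v ≠ 0) : 32 ≤ ∑ i, D.φ v i ^ 2 := by
  have := min4 hB (fun e : v = 0 => h (by rw [e, map_zero]))
  rw [D.sq]; omega

/-- Multiples of four in the image have even sum. -/
theorem four_even (hB : Data B) {v : Fin 24 → ℤ} {d : ι → ℤ} (h : D.φ v = fun i => 4 * d i) : (2 : ℤ) ∣ ∑ i, d i := by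
  by_contra hodd
  rcases isEmpty_or_nonempty ι with he | ⟨⟨o⟩⟩
  · exact hodd (by simp)
  obtain ⟨w, hw⟩ := D.four_mem (d := fun i => d i - if i = o then 1 else 0) (by
    simp only [Finset.sum_sub_distrib, Finset.sum_ite_eq', Finset.mem_univ, if_true]; omega)
  have hu : D.φ (v - w) = fun i => if i = o then 4 else 0 := by
    rw [map_sub, h, hw]
    funext i
    simp only [Pi.sub_apply]
    split_ifs <;> ring
  have := D.min32 hB (v := v - w) (by rw [hu]; exact fun e => by simpa using congrFun e o)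
  rw [hu] at this
  simp [Finset.sum_ite_eq', apply_ite (fun z : ℤ => z ^ 2)] at this

/-- The code of the halved even vectors. -/
def code : Submodule (ZMod 2) (ι → ZMod 2) where
  carrier := {c | ∃ (v : Fin 24 → ℤ) (y : ι → ℤ), D.φ v = (fun i => 2 * y i) ∧ ∀ i, c i = (y i : ZMod 2)}
  zero_mem' := ⟨0, 0, by funext i; simp, fun i => by simp⟩
  add_mem' := by
    rintro a b ⟨v, y, hv, hy⟩ ⟨w, z, hw, hz⟩
    exact ⟨v + w, y + z, by rw [map_add, hv, hw]; funext i; simp; ring, fun i => by simp [hy, hz]⟩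
  smul_mem' := by
    rintro r a ha
    rcases (show r = 0 ∨ r = 1 by revert r; decide) with rfl | rfl
    · exact ⟨0, 0, by funext i; simp, fun i => by simp⟩
    · simpa using ha

theorem code_orth {a b : ι → ZMod 2} (ha : a ∈ D.code) (hb : b ∈ D.code) : ∑ i, a i * b i = 0 := by
  obtain ⟨v, y, hv, hy⟩ := ha
  obtain ⟨w, z, hw, hz⟩ := hb
  have h := D.dot v w
  simp only [hv, hw] at h
  have h2 : (2 : ℤ) ∣ ∑ i, y i * z i := by
    rw [show ∑ i, 2 * y i * (2 * z i) = 4 * ∑ i, y i * z i by rw [Finset.mul_sum]; exact Finset.sum_congr rfl fun i _ => by ring] at h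
    omega
  simp only [hy, hz]
  rw [show ∑ i, (y i : ZMod 2) * (z i : ZMod 2) = ((∑ i, y i * z i : ℤ) : ZMod 2) by push_cast; rfl]
  exact (ZMod.intCast_zmod_eq_zero_iff_dvd _ 2).2 (by exact_mod_cast h2)

theorem weight_cast {y : ι → ℤ} {c : ι → ZMod 2} (hy : ∀ i, c i = (y i : ZMod 2)) (i : ι) :
    (if c i ≠ 0 then (1 : ℤ) else 0) = y i % 2 := by
  rw [hy]
  simp only [ne_eq, ZMod.intCast_zmod_eq_zero_iff_dvd, Nat.cast_ofNat]
  split_ifs with h <;> omega

theorem code_four_dvd (hB : Data B) {c : ι → ZMod 2} (hc : c ∈ D.code) : 4 ∣ (univ.filter fun i => c i ≠ 0).card := by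
  obtain ⟨v, y, hv, hy⟩ := hc
  have h := D.sq v
  obtain ⟨k, hk⟩ := hB.even v
  rw [hv, show ∑ i, (2 * y i) ^ 2 = 4 * ∑ i, y i ^ 2 by rw [Finset.mul_sum]; exact Finset.sum_congr rfl fun i _ => by ring,
    show ip B v v = 2 * k from hk] at h
  have h2 : (4 : ℤ) ∣ ∑ i, (y i ^ 2 - if c i ≠ 0 then (1 : ℤ) else 0) := Finset.dvd_sum fun i _ => by
    rw [weight_cast hy]
    have e : y i ^ 2 - y i % 2 = 4 * (y i / 2) ^ 2 + 4 * (y i / 2) * (y i % 2) + ((y i % 2) ^ 2 - y i % 2) := by
      conv_lhs => rw [← Int.mul_ediv_add_emod (y i) 2]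
      rw [Int.mul_add_emod_self_left, Int.emod_emod]; ring
    refine ⟨(y i / 2) ^ 2 + (y i / 2) * (y i % 2), ?_⟩
    rw [e]
    rcases Int.emod_two_eq_zero_or_one (y i) with h | h <;> rw [h] <;> ring
  rw [Finset.sum_sub_distrib, Finset.sum_boole] at h2
  omega

/-- A lift with small entries. -/
theorem small_lift {c : ι → ZMod 2} (hc : c ∈ D.code) (hne : c ≠ 0) :
    ∃ (v : Fin 24 → ℤ) (t : ι → ℤ), D.φ v = (fun i => 2 * t i) ∧ ∀ i, (c i ≠ 0 → t i = 1 ∨ t i = -1) ∧ (c i = 0 → t i = 0) := by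
  obtain ⟨v, y, hv, hy⟩ := hc
  obtain ⟨a, ha⟩ := Function.ne_iff.1 hne
  have hpar : ∀ i, c i ≠ 0 ↔ y i % 2 = 1 := fun i => by
    have := weight_cast hy i
    split_ifs at this with h
    · exact iff_of_true h this.symm
    · exact iff_of_false h (by omega)
  let d0 : ι → ℤ := fun i => -(y i / 2)
  let s : ℤ := (∑ i, d0 i) % 2
  let d : ι → ℤ := fun i => d0 i - if i = a then s else 0
  obtain ⟨w, hw⟩ := D.four_mem (d := d) (by
    simp only [d, s, Finset.sum_sub_distrib, Finset.sum_ite_eq', Finset.mem_univ, if_true]; omega)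
  refine ⟨v + w, fun i => y i + 2 * d i, by rw [map_add, hv, hw]; funext i; simp only [Pi.add_apply]; ring, fun i => ⟨fun h => ?_, fun h => ?_⟩⟩
  · have := (hpar i).1 h
    simp only [d, d0, s]
    split_ifs <;> omega
  · have h1 : ¬ y i % 2 = 1 := fun e => (hpar i).2 e h
    have h3 : i ≠ a := fun e => ha (by rw [← e]; exact h)
    simp only [d, d0, s, if_neg h3]
    omega

theorem code_min (hB : Data B) {c : ι → ZMod 2} (hc : c ∈ D.code) (hne : c ≠ 0) : 8 ≤ (univ.filter fun i => c i ≠ 0).card := by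
  obtain ⟨v, t, hv, ht⟩ := D.small_lift hc hne
  have hs : ∑ i, D.φ v i ^ 2 = 4 * ((univ.filter fun i => c i ≠ 0).card : ℤ) := by
    rw [← Finset.sum_boole, Finset.mul_sum, hv]
    refine Finset.sum_congr rfl fun i _ => ?_
    by_cases h : c i = 0
    · simp [h, (ht i).2 h]
    · rcases (ht i).1 h with e | e <;> simp [h, e]
  have hne' : D.φ v ≠ 0 := fun e => by
    rw [e] at hs
    obtain ⟨a, ha⟩ := Function.ne_iff.1 hne
    have : 0 < (univ.filter fun i => c i ≠ 0).card := Finset.card_pos.2 ⟨a, Finset.mem_filter.2 ⟨Finset.mem_univ _, ha⟩⟩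
    simp only [Pi.zero_apply, ne_eq, OfNat.ofNat_ne_zero, not_false_eq_true, zero_pow, Finset.sum_const_zero] at hs this
    omega
  have h32 := D.min32 hB hne'
  rw [hs] at h32
  omega

end Coords

end Cfsg.Agent.Lib.Leech.Even
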