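import Cfsg.Agent.Lib.Leech.EvenCoords

/-!
The number of minimal vectors forces the code to have 4096 words and the coordinates to take odd values.
-/

set_option autoImplicit false

namespace Cfsg.Agent.Lib.Leech.Even

open Matrix Finset

variable {B : Matrix (Fin 24) (Fin 24) ℤ} {ι : Type} [Fintype ι] [DecidableEq ι]

namespace Coords

variable (D : Coords B ι)

theorem dichotomy (v : Fin 24 → ℤ) : (∀ i, (2 : ℤ) ∣ D.φ v i) ∨ (∀ i, ¬ (2 : ℤ) ∣ D.φ v i) := by
  by_cases h : ∀ i, ¬ (2 : ℤ) ∣ D.φ v i
  · exact Or.inr h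
  · push Not at h
    obtain ⟨j, hj⟩ := h
    refine Or.inl fun i => ?_
    have := D.parity v i j
    omega

theorem eight_words (hB : Data B) (hι : Fintype.card ι = 24) (O : Finset (Finset ι))
    (hO : ∀ o ∈ O, o.card = 8 ∧ ∃ c ∈ D.code, ∀ i, c i ≠ 0 ↔ i ∈ o) : O.card ≤ 759 := by
  classical
  let S := O.sigma fun o => o.powersetCard 5
  have hcard : S.card = O.card * 56 := by
    rw [Finset.card_sigma, Finset.sum_congr rfl fun o ho => by rw [Finset.card_powersetCard, (hO o ho).1],
      Finset.sum_const, smul_eq_mul]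
    rfl
  have hinj : S.card ≤ ((univ : Finset ι).powersetCard 5).card := by
    refine Finset.card_le_card_of_injOn Sigma.snd (fun x hx => ?_) ?_
    · exact Finset.mem_powersetCard.2 ⟨Finset.subset_univ _, (Finset.mem_powersetCard.1 (Finset.mem_sigma.1 (Finset.mem_coe.1 hx)).2).2⟩
    · rintro ⟨o, t⟩ hx ⟨o', t'⟩ hy (rfl : t = t')
      obtain ⟨ho, ht⟩ := Finset.mem_sigma.1 (Finset.mem_coe.1 hx)
      obtain ⟨ho', ht'⟩ := Finset.mem_sigma.1 (Finset.mem_coe.1 hy)
      obtain ⟨h8, c, hc, hco⟩ := hO o ho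
      obtain ⟨h8', c', hc', hco'⟩ := hO o' ho'
      suffices o = o' by subst this; rfl
      by_contra hne
      have e2 : ∀ z : ZMod 2, z = 0 ∨ z = 1 := by decide
      have hsupp : (univ.filter fun i => (c + c') i ≠ 0) = (o ∪ o') \ (o ∩ o') := by
        ext i
        simp only [Finset.mem_filter, Finset.mem_univ, true_and, Pi.add_apply, Finset.mem_sdiff, Finset.mem_union,
          Finset.mem_inter, ← hco, ← hco']
        rcases e2 (c i) with h | h <;> rcases e2 (c' i) with h' | h' <;> simp [h, h']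
        decide
      have hcc : c + c' ≠ 0 := fun e => hne (by
        ext i
        rw [← hco, ← hco']
        have := congrFun e i
        rcases e2 (c i) with h | h <;> rcases e2 (c' i) with h' | h' <;> simp [h, h'] at this ⊢)
      have := D.code_min hB (add_mem hc hc') hcc
      rw [hsupp, Finset.card_sdiff_of_subset (Finset.inter_subset_union), Finset.card_union,
        (hO o ho).1, (hO o' ho').1] at this
      have h5 : 5 ≤ (o ∩ o').card := by
        rw [← (Finset.mem_powersetCard.1 ht).2]
        exact Finset.card_le_card (Finset.subset_inter (Finset.mem_powersetCard.1 ht).1 (Finset.mem_powersetCard.1 ht').1)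
      omega
  rw [hcard, Finset.card_powersetCard, Finset.card_univ, hι, show Nat.choose 24 5 = 42504 by decide] at hinj
  omega

theorem odd_shape {x : ι → ℤ} (hι : Fintype.card ι = 24) (hodd : ∀ i, ¬ (2 : ℤ) ∣ x i) (hs : ∑ i, x i ^ 2 = 32) :
    ∃ a, (x a = 3 ∨ x a = -3) ∧ ∀ i, i ≠ a → x i = 1 ∨ x i = -1 := by
  classical
  have h1 : ∀ i, 1 ≤ x i ^ 2 := fun i => by
    have : x i ≠ 0 := fun e => hodd i (e ▸ dvd_zero _)
    have := (sq_pos_iff (a := x i)).2 this
    omega
  obtain ⟨a, ha⟩ : ∃ a, ¬ (x a = 1 ∨ x a = -1) := by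
    by_contra! h
    have : ∀ i, x i ^ 2 = 1 := fun i => by
      rcases h i with e | e <;> rw [e] <;> norm_num
    rw [Finset.sum_congr rfl fun i _ => this i, Finset.sum_const, Finset.card_univ, hι] at hs
    norm_num at hs
  have h9 : ∀ i, ¬ (x i = 1 ∨ x i = -1) → 9 ≤ x i ^ 2 := fun i hi => by
    have := hodd i
    rcases le_or_gt 0 (x i) with h | h
    · have : 3 ≤ x i := by omega
      nlinarith
    · have : x i ≤ -3 := by omega
      nlinarith
  have hsum := Finset.add_sum_erase univ (fun i => x i ^ 2) (Finset.mem_univ a)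
  simp only [hs] at hsum
  have hlow : ∀ s : Finset ι, (s.card : ℤ) ≤ ∑ i ∈ s, x i ^ 2 := fun s => by
    calc (s.card : ℤ) = ∑ _i ∈ s, (1 : ℤ) := by simp
      _ ≤ _ := Finset.sum_le_sum fun i _ => h1 i
  refine ⟨a, ?_, fun i hi => ?_⟩
  · have := hlow (univ.erase a)
    rw [Finset.card_erase_of_mem (Finset.mem_univ _), Finset.card_univ, hι] at this
    have hub : x a ^ 2 ≤ 9 := by norm_num at this; omega
    have : -3 ≤ x a ∧ x a ≤ 3 := by constructor <;> nlinarith
    have := hodd a
    omega
  · by_contra hb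
    have h2 := Finset.add_sum_erase (univ.erase a) (fun i => x i ^ 2) (Finset.mem_erase.2 ⟨hi, Finset.mem_univ _⟩)
    have := hlow ((univ.erase a).erase i)
    rw [Finset.card_erase_of_mem (Finset.mem_erase.2 ⟨hi, Finset.mem_univ _⟩), Finset.card_erase_of_mem (Finset.mem_univ _),
      Finset.card_univ, hι] at this
    have := h9 a ha
    have := h9 i hb
    norm_num at *
    omega

theorem enough (hB : Data B) (hι : Fintype.card ι = 24) :
    4096 ≤ Nat.card D.code ∧ ∃ v, ∀ i, ¬ (2 : ℤ) ∣ D.φ v i := by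
  classical
  set S4 := (Set.finite_of_ncard_pos (s := {x : Fin 24 → ℤ | x ⬝ᵥ (B *ᵥ x) = 4}) (by rw [hB.c4]; norm_num)).toFinset with hS4
  have n4 : S4.card = 196560 := (Set.ncard_eq_toFinset_card _ _).symm.trans hB.c4
  have m4 : ∀ v ∈ S4, ∑ i, D.φ v i ^ 2 = 32 := fun v hv => by
    rw [hS4, Set.Finite.mem_toFinset] at hv
    rw [D.sq, show ip B v v = 4 from hv]; norm_num
  let odd := S4.filter fun v => ∀ i, ¬ (2 : ℤ) ∣ D.φ v i
  let rest := S4.filter fun v => ¬ ∀ i, ¬ (2 : ℤ) ∣ D.φ v i
  have hsplit := Finset.card_filter_add_card_filter_not (s := S4) (fun v => ∀ i, ¬ (2 : ℤ) ∣ D.φ v i)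
  -- the even vectors
  let word : (Fin 24 → ℤ) → Finset ι := fun v => univ.filter fun i => ¬ (4 : ℤ) ∣ D.φ v i
  have heven : ∀ v ∈ rest, ∀ i, (2 : ℤ) ∣ D.φ v i := fun v hv => by
    rcases D.dichotomy v with h | h
    · exact h
    · exact absurd h (Finset.mem_filter.1 hv).2
  have hword : ∀ v ∈ rest, (word v).card = 0 ∨ (word v).card = 8 := fun v hv => by
    have h := m4 v (Finset.mem_filter.1 hv).1
    have hge : ∀ i ∈ word v, 4 ≤ D.φ v i ^ 2 := fun i hi => by
      have h2 := heven v hv i
      have h4 := (Finset.mem_filter.1 hi).2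
      have : D.φ v i ≤ -2 ∨ 2 ≤ D.φ v i := by omega
      rcases this with h | h <;> nlinarith
    have hle : 4 * ((word v).card : ℤ) ≤ 32 := by
      rw [← h]
      calc 4 * ((word v).card : ℤ) = ∑ _i ∈ word v, (4 : ℤ) := by simp [mul_comm]
        _ ≤ ∑ i ∈ word v, D.φ v i ^ 2 := Finset.sum_le_sum hge
        _ ≤ _ := Finset.sum_le_sum_of_subset_of_nonneg (Finset.subset_univ _) fun i _ _ => sq_nonneg _
    let y : ι → ℤ := fun i => D.φ v i / 2
    let c : ι → ZMod 2 := fun i => (y i : ZMod 2)
    have hy : D.φ v = fun i => 2 * y i := funext fun i => (Int.mul_ediv_cancel' (heven v hv i)).symm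
    have hc : c ∈ D.code := ⟨v, y, hy, fun i => rfl⟩
    have e : (univ.filter fun i => c i ≠ 0) = word v := Finset.filter_congr fun i _ => by
      simp only [c, y, ne_eq, ZMod.intCast_zmod_eq_zero_iff_dvd, Nat.cast_ofNat]
      have := heven v hv i
      omega
    by_cases h0 : c = 0
    · left; rw [← e, h0]; simp
    · right
      have := D.code_min hB hc h0
      rw [e] at this
      omega
  let zero := rest.filter fun v => (word v).card = 0
  let eight := rest.filter fun v => ¬ (word v).card = 0
  have hsplit2 := Finset.card_filter_add_card_filter_not (s := rest) (fun v => (word v).card = 0)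
  have hz : zero.card ≤ 1104 := by
    let enc : (Fin 24 → ℤ) → Finset ι × Finset ι := fun v =>
      (univ.filter fun i => D.φ v i = 4, univ.filter fun i => D.φ v i = -4)
    have hval : ∀ v ∈ zero, ∀ i, D.φ v i = 0 ∨ D.φ v i = 4 ∨ D.φ v i = -4 := fun v hv i => by
      obtain ⟨hv1, hv2⟩ := Finset.mem_filter.1 hv
      have h := m4 v (Finset.mem_filter.1 hv1).1
      have h4 : (4 : ℤ) ∣ D.φ v i := by
        by_contra hn
        have : i ∈ word v := Finset.mem_filter.2 ⟨Finset.mem_univ _, hn⟩
        rw [Finset.card_eq_zero.1 hv2] at this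
        exact Finset.notMem_empty i this
      have hle := Finset.single_le_sum (f := fun i => D.φ v i ^ 2) (fun i _ => sq_nonneg _) (Finset.mem_univ i)
      simp only [h] at hle
      have : -6 < D.φ v i ∧ D.φ v i < 6 := by constructor <;> nlinarith
      omega
    let T := ((univ : Finset ι).powersetCard 2).sigma fun s => s.powerset
    have hT : T.card = 1104 := by
      rw [Finset.card_sigma, Finset.sum_congr rfl fun s hs => by
        rw [Finset.card_powerset, (Finset.mem_powersetCard.1 hs).2], Finset.sum_const, Finset.card_powersetCard,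
        Finset.card_univ, hι]
      rfl
    rw [← hT]
    refine Finset.card_le_card_of_injOn
      (fun v => ⟨(univ.filter fun i => D.φ v i ≠ 0), (univ.filter fun i => D.φ v i = 4)⟩) (fun v hv => ?_) ?_
    · have hv' := Finset.mem_coe.1 hv
      refine Finset.mem_sigma.2 ⟨Finset.mem_powersetCard.2 ⟨Finset.subset_univ _, ?_⟩, Finset.mem_powerset.2 fun i hi => ?_⟩
      · have h := m4 v (Finset.mem_filter.1 (Finset.mem_filter.1 hv').1).1
        have e : ∑ i, D.φ v i ^ 2 = ∑ i, if D.φ v i ≠ 0 then (16 : ℤ) else 0 := Finset.sum_congr rfl fun i _ => by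
          rcases hval v hv' i with e | e | e <;> rw [e] <;> norm_num
        rw [e, ← Finset.sum_filter, Finset.sum_const, nsmul_eq_mul] at h
        show (univ.filter fun i => D.φ v i ≠ 0).card = 2
        omega
      · simp only [Finset.mem_filter, Finset.mem_univ, true_and] at hi ⊢
        omega
    · intro v hv w hw e
      simp only [Sigma.mk.injEq, heq_eq_eq] at e
      refine D.inj (funext fun i => ?_)
      have e1 := Finset.ext_iff.1 e.1 i
      have e2 := Finset.ext_iff.1 e.2 i
      simp only [Finset.mem_filter, Finset.mem_univ, true_and] at e1 e2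
      rcases hval v (Finset.mem_coe.1 hv) i with h | h | h <;> rcases hval w (Finset.mem_coe.1 hw) i with h' | h' | h' <;>
        omega
  have h8 : eight.card ≤ 128 * 759 := by
    have hw8 : ∀ v ∈ eight, (word v).card = 8 := fun v hv =>
      (hword v (Finset.mem_filter.1 hv).1).resolve_left (Finset.mem_filter.1 hv).2
    have hval : ∀ v ∈ eight, ∀ i, (i ∈ word v → D.φ v i = 2 ∨ D.φ v i = -2) ∧ (i ∉ word v → D.φ v i = 0) := fun v hv => by
      have hr := (Finset.mem_filter.1 hv).1
      have h := m4 v (Finset.mem_filter.1 hr).1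
      have hsum := Finset.sum_add_sum_compl (word v) fun i => D.φ v i ^ 2
      rw [h] at hsum
      have hge : ∀ i ∈ word v, 4 ≤ D.φ v i ^ 2 := fun i hi => by
        have h2 := heven v hr i
        have h4 := (Finset.mem_filter.1 hi).2
        have : D.φ v i ≤ -2 ∨ 2 ≤ D.φ v i := by omega
        rcases this with h | h <;> nlinarith
      have h32 : (32 : ℤ) ≤ ∑ i ∈ word v, D.φ v i ^ 2 := by
        calc (32 : ℤ) = ∑ _i ∈ word v, (4 : ℤ) := by rw [Finset.sum_const, hw8 v hv]; norm_num
          _ ≤ _ := Finset.sum_le_sum hge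
      have hc0 : ∑ i ∈ (word v)ᶜ, D.φ v i ^ 2 = 0 := le_antisymm (by omega) (Finset.sum_nonneg fun i _ => sq_nonneg _)
      intro i
      refine ⟨fun hi => ?_, fun hi => ?_⟩
      · have he : ∑ i ∈ word v, D.φ v i ^ 2 = ∑ _i ∈ word v, (4 : ℤ) := by
          rw [Finset.sum_const, hw8 v hv]
          rw [hc0] at hsum
          norm_num
          omega
        have := ((Finset.sum_eq_sum_iff_of_le hge).1 he.symm i hi).symm
        have : -3 < D.φ v i ∧ D.φ v i < 3 := by constructor <;> nlinarith
        have := (Finset.mem_filter.1 hi).2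
        have := heven v hr i
        omega
      · have := (Finset.sum_eq_zero_iff_of_nonneg fun i _ => sq_nonneg _).1 hc0 i (Finset.mem_compl.2 hi)
        exact pow_eq_zero_iff two_ne_zero |>.1 this
    have hO := D.eight_words hB hι (eight.image word) fun o ho => by
      obtain ⟨v, hv, rfl⟩ := Finset.mem_image.1 ho
      refine ⟨hw8 v hv, _, ⟨v, fun i => D.φ v i / 2, funext fun i => (Int.mul_ediv_cancel' (heven v (Finset.mem_filter.1 hv).1 i)).symm, fun i => rfl⟩, fun i => ?_⟩
      simp only [word, Finset.mem_filter, Finset.mem_univ, true_and, ne_eq, ZMod.intCast_zmod_eq_zero_iff_dvd, Nat.cast_ofNat]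
      have := heven v (Finset.mem_filter.1 hv).1 i
      omega
    refine le_trans (Finset.card_le_mul_card_image (f := word) eight 128 fun o ho => ?_) (Nat.mul_le_mul_left _ hO)
    obtain ⟨v0, hv0, rfl⟩ := Finset.mem_image.1 ho
    obtain ⟨a, ha⟩ : (word v0).Nonempty := Finset.card_pos.1 (by rw [hw8 v0 hv0]; norm_num)
    have hp : ((word v0).erase a).powerset.card = 128 := by
      rw [Finset.card_powerset, Finset.card_erase_of_mem ha, hw8 v0 hv0]
      norm_num
    rw [← hp]
    refine Finset.card_le_card_of_injOn (fun v => ((word v0).erase a).filter fun i => D.φ v i = 2)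
      (fun v _ => Finset.mem_coe.2 (Finset.mem_powerset.2 (Finset.filter_subset _ _))) ?_
    intro v hv w hw e
    obtain ⟨hv1, hv2⟩ := Finset.mem_filter.1 (Finset.mem_coe.1 hv)
    obtain ⟨hw1, hw2⟩ := Finset.mem_filter.1 (Finset.mem_coe.1 hw)
    have hdiff : ∀ i, i ≠ a → D.φ (v - w) i = 0 := fun i hi => by
      rw [map_sub, Pi.sub_apply]
      by_cases h : i ∈ word v0
      · have e1 := Finset.ext_iff.1 e i
        simp only [Finset.mem_filter, Finset.mem_erase, ne_eq, hi, not_false_eq_true, h, and_self, true_and] at e1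
        rcases (hval v hv1 i).1 (hv2 ▸ h) with a1 | a1 <;> rcases (hval w hw1 i).1 (hw2 ▸ h) with a2 | a2 <;>
          omega
      · rw [(hval v hv1 i).2 (hv2 ▸ h), (hval w hw1 i).2 (hw2 ▸ h), sub_zero]
    refine D.inj (sub_eq_zero.1 ?_)
    rw [← map_sub]
    by_contra hne
    have h32 := D.min32 hB hne
    rw [Finset.sum_eq_single a (fun i _ hi => by rw [hdiff i hi]; norm_num) (fun h => absurd (Finset.mem_univ _) h),
      map_sub, Pi.sub_apply] at h32
    rcases (hval v hv1 a).1 (hv2 ▸ ha) with a1 | a1 <;> rcases (hval w hw1 a).1 (hw2 ▸ ha) with a2 | a2 <;>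
      rw [a1, a2] at h32 <;> norm_num at h32
  -- the odd vectors
  have hcodd : ∃ v, ∀ i, ¬ (2 : ℤ) ∣ D.φ v i := by
    obtain ⟨v, hv⟩ : odd.Nonempty := Finset.card_pos.1 (by simp only [odd, rest, zero, eight] at *; omega)
    exact ⟨v, (Finset.mem_filter.1 hv).2⟩
  obtain ⟨v0, hv0⟩ := hcodd
  refine ⟨?_, v0, hv0⟩
  haveI : Fintype ↥D.code := Fintype.ofFinite _
  have hshape : ∀ v ∈ odd, ∃ a, (D.φ v a = 3 ∨ D.φ v a = -3) ∧ ∀ i, i ≠ a → D.φ v i = 1 ∨ D.φ v i = -1 := fun v hv =>
    odd_shape hι (Finset.mem_filter.1 hv).2 (m4 v (Finset.mem_filter.1 hv).1)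
  let pos : (Fin 24 → ℤ) → Finset ι := fun v => univ.filter fun i => D.φ v i = 3 ∨ D.φ v i = -3
  let code' : (Fin 24 → ℤ) → ι → ZMod 2 := fun v i => (((D.φ v i - D.φ v0 i) / 2 : ℤ) : ZMod 2)
  have hmem : ∀ v ∈ odd, code' v ∈ D.code := fun v hv => ⟨v - v0, fun i => (D.φ v i - D.φ v0 i) / 2, funext fun i => by
    rw [map_sub, Pi.sub_apply]
    show _ = 2 * ((D.φ v i - D.φ v0 i) / 2)
    have := (Finset.mem_filter.1 hv).2 i
    have := hv0 i
    omega, fun i => rfl⟩
  let tgt := ((univ : Finset ι).powersetCard 1) ×ˢ (univ.filter fun c : ι → ZMod 2 => c ∈ D.code)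
  have htgt : tgt.card = 24 * Nat.card D.code := by
    rw [Finset.card_product, Finset.card_powersetCard, Finset.card_univ, hι, Nat.choose_one_right, Nat.card_eq_fintype_card,
      ← Fintype.card_subtype]
  have hle : odd.card ≤ tgt.card := by
    refine Finset.card_le_card_of_injOn (fun v => (pos v, code' v)) (fun v hv => ?_) ?_
    · obtain ⟨a, ha, hr⟩ := hshape v (Finset.mem_coe.1 hv)
      refine Finset.mem_coe.2 (Finset.mem_product.2 ⟨Finset.mem_powersetCard.2 ⟨Finset.subset_univ _, ?_⟩,
        Finset.mem_filter.2 ⟨Finset.mem_univ _, hmem v (Finset.mem_coe.1 hv)⟩⟩)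
      show (pos v).card = 1
      rw [show pos v = {a} by
        ext i
        simp only [pos, Finset.mem_filter, Finset.mem_univ, true_and, Finset.mem_singleton]
        refine ⟨fun h => ?_, fun h => h ▸ ha⟩
        by_contra hi
        rcases hr i hi with e | e <;> omega, Finset.card_singleton]
    · intro v hv w hw e
      simp only [Prod.mk.injEq] at e
      obtain ⟨a, ha, hr⟩ := hshape v (Finset.mem_coe.1 hv)
      obtain ⟨b, hb, hr'⟩ := hshape w (Finset.mem_coe.1 hw)
      have hpos : ∀ i, (D.φ v i = 3 ∨ D.φ v i = -3) ↔ (D.φ w i = 3 ∨ D.φ w i = -3) := fun i => by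
        have := Finset.ext_iff.1 e.1 i
        simpa [pos] using this
      refine D.inj (funext fun i => ?_)
      have h2 := congrFun e.2 i
      simp only [code', ZMod.intCast_eq_intCast_iff', Nat.cast_ofNat] at h2
      have h3 := hv0 i
      have h4 := hpos i
      by_cases hi : i = a
      · subst hi
        by_cases hi' : i = b
        · subst hi'; omega
        · have := hr' i hi'; omega
      · have := hr i hi
        by_cases hi' : i = b
        · subst hi'; omega
        · have := hr' i hi'; omega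
  simp only [odd, rest, zero, eight] at *
  omega

end Coords

end Cfsg.Agent.Lib.Leech.Even
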