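import Cfsg.Agent.Lib.Leech.EvenCount
import Cfsg.Agent.Lib.Leech.Basic
import Cfsg.Agent.Lib.Code24.Unique
import Cfsg.Agent.Lib.Code24.Frame

/-!
An even lattice without roots with the given counts of short vectors is the standard one.
-/

set_option autoImplicit false

namespace Cfsg.Agent.Lib.Leech.Even

open Matrix Finset Cfsg Golay

variable {B : Matrix (Fin 24) (Fin 24) ℤ}

theorem isGolay (hB : Data B) (D : Coords B (Fin 24)) : Code24.IsGolay D.code := by
  classical
  have hmin : ∀ w ∈ D.code, w ≠ 0 → 8 ≤ hammingNorm w := fun w hw hne => D.code_min hB hw hne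
  refine ⟨le_antisymm ?_ ?_, fun v hv w hw => D.code_orth hv hw, hmin⟩
  · let b : LinearMap.BilinForm (ZMod 2) (Fin 24 → ZMod 2) := Matrix.toBilin' (1 : Matrix (Fin 24) (Fin 24) (ZMod 2))
    have hb : ∀ u v, b u v = ∑ i, u i * v i := fun u v => by
      simp [b, Matrix.toBilin'_apply', dotProduct]
    have hnd : b.Nondegenerate := Matrix.Nondegenerate.toBilin' (Matrix.nondegenerate_of_det_ne_zero (by simp))
    have hle : D.code ≤ b.orthogonal D.code := fun u hu v hv => by
      show b v u = 0
      rw [hb]; exact D.code_orth hv hu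
    have h1 := Submodule.finrank_mono hle
    rw [LinearMap.BilinForm.finrank_orthogonal hnd, Module.finrank_fin_fun] at h1
    have h2 := Nat.add_le_of_le_sub (by exact (Submodule.finrank_le _).trans_eq (Module.finrank_fin_fun _)) h1
    exact (by intro n hn; omega : ∀ n : ℕ, n + n ≤ 24 → n ≤ 12) _ h2
  · obtain ⟨h, -⟩ := D.enough hB (by simp)
    rw [Module.natCard_eq_pow_finrank (K := ZMod 2), Nat.card_eq_fintype_card (α := ZMod 2), ZMod.card,
      show 4096 = 2 ^ 12 by norm_num, Nat.pow_le_pow_iff_right (by norm_num)] at h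
    exact h

theorem code_reindex {ι κ : Type} [Fintype ι] [DecidableEq ι] [Fintype κ] [DecidableEq κ] (e : ι ≃ κ) (D : Coords B ι)
    (w : κ → ZMod 2) : w ∈ (D.reindex e).code ↔ (fun i => w (e i)) ∈ D.code := by
  constructor
  · rintro ⟨v, y, hv, hy⟩
    refine ⟨v, fun i => y (e i), funext fun i => ?_, fun i => hy _⟩
    have := congrFun hv (e i)
    simpa [Coords.reindex] using this
  · rintro ⟨v, y, hv, hy⟩
    refine ⟨v, fun k => y (e.symm k), funext fun k => ?_, fun k => ?_⟩
    · show D.φ v (e.symm k) = _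
      rw [hv]
    · have := hy (e.symm k)
      simpa using this

variable {ι : Type} [Fintype ι] [DecidableEq ι]

theorem exists_golay_coords (hB : Data B) : ∃ D : Coords B GolayPt, D.code = golayCode := by
  obtain ⟨D⟩ := exists_frame hB
  obtain ⟨e, he⟩ := Code24.exists_equiv_golay (isGolay hB D)
  exact ⟨D.reindex e, Submodule.ext fun w => (code_reindex e D w).trans (he w).symm⟩

namespace Coords

/-- Changing signs. -/
def signs (T : ι → Bool) (D : Coords B ι) : Coords B ι where
  φ := AddMonoidHom.mk' (fun (v : Fin 24 → ℤ) i => if T i then -D.φ v i else D.φ v i) (fun a b => funext fun i => by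
    rw [map_add]
    change (if T i then -(D.φ a i + D.φ b i) else D.φ a i + D.φ b i) =
      (if T i then -D.φ a i else D.φ a i) + (if T i then -D.φ b i else D.φ b i)
    split_ifs <;> ring)
  dot v w := by
    refine Eq.trans (Finset.sum_congr rfl fun i _ => ?_) (D.dot v w)
    show (if T i then -D.φ v i else D.φ v i) * (if T i then -D.φ w i else D.φ w i) = _
    cases T i <;> simp
  inj v w h := D.inj (funext fun i => by
    have := congrFun h i
    change (if T i then -D.φ v i else D.φ v i) = (if T i then -D.φ w i else D.φ w i) at this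
    cases hT : T i <;> simp [hT] at this <;> exact this)
  single i := by
    obtain ⟨v, hv⟩ := D.single i
    refine ⟨if T i then -v else v, funext fun k => ?_⟩
    show (if T k then -D.φ _ k else D.φ _ k) = _
    by_cases hk : k = i
    · subst hk; cases T k <;> simp [hv]
    · cases T k <;> cases T i <;> simp [hv, hk]
  diff i j := by
    have hs : ∀ d : ι → ℤ, (2 : ℤ) ∣ ∑ k, d k →
        ∃ v, (fun k => if T k then -D.φ v k else D.φ v k) = fun k => 4 * d k := fun d hd => by
      obtain ⟨v, hv⟩ := D.four_mem (d := fun k => if T k then -d k else d k) (by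
        have e : ∑ k, (if T k then -d k else d k) = (∑ k, d k) - 2 * ∑ k, (if T k then d k else 0) := by
          rw [Finset.mul_sum, ← Finset.sum_sub_distrib]
          exact Finset.sum_congr rfl fun k _ => by split_ifs <;> ring
        rw [e]; omega)
      exact ⟨v, funext fun k => by rw [hv]; by_cases h : T k <;> simp [h]⟩
    obtain ⟨v, hv⟩ := hs (Pi.single i (1 : ℤ) - Pi.single j 1 : ι → ℤ) (by simp [Finset.sum_sub_distrib])
    refine ⟨v, (show _ = fun k => 4 * (Pi.single i (1 : ℤ) - Pi.single j 1 : ι → ℤ) k from hv).trans (funext fun k => ?_)⟩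
    simp only [Pi.sub_apply, Pi.single_apply]
    split_ifs <;> norm_num
  parity v i j := by
    have := D.parity v i j
    show (2 : ℤ) ∣ (if T i then -D.φ v i else D.φ v i) - (if T j then -D.φ v j else D.φ v j)
    cases T i <;> cases T j <;> simp <;> omega

theorem signs_apply (T : ι → Bool) (D : Coords B ι) (v : Fin 24 → ℤ) (i : ι) :
    (D.signs T).φ v i = if T i then -D.φ v i else D.φ v i := rfl

theorem code_signs_le (T : ι → Bool) (D : Coords B ι) : D.code ≤ (D.signs T).code := by
  rintro c ⟨v, y, hv, hy⟩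
  refine ⟨v, fun i => if T i then -y i else y i, funext fun i => ?_, fun i => ?_⟩
  · rw [signs_apply, hv]; by_cases h : T i <;> simp [h]
  · rw [hy]; cases T i <;> simp [CharTwo.neg_eq]

theorem code_signs (T : ι → Bool) (D : Coords B ι) : (D.signs T).code = D.code := by
  refine le_antisymm (le_trans (code_signs_le T _) (fun c hc => ?_)) (code_signs_le T D)
  obtain ⟨v, y, hv, hy⟩ := hc
  refine ⟨v, y, funext fun i => ?_, hy⟩
  have := congrFun hv i
  rw [signs_apply, signs_apply] at this
  cases hT : T i <;> simp [hT] at this <;> exact this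

theorem code_card_even (hB : Data B) (D : Coords B ι) {v : Fin 24 → ℤ} {y : ι → ℤ} (hv : D.φ v = fun i => 2 * y i) :
    (2 : ℤ) ∣ ∑ i, y i := by
  have h4 := D.code_four_dvd hB ⟨v, y, hv, fun i => rfl⟩
  have h2 : (2 : ℤ) ∣ ∑ i, (y i - if (y i : ZMod 2) ≠ 0 then (1 : ℤ) else 0) := Finset.dvd_sum fun i _ => by
    rw [weight_cast (c := fun i => (y i : ZMod 2)) (fun i => rfl) i]; omega
  rw [Finset.sum_sub_distrib, Finset.sum_boole] at h2
  omega

/-- The half of the sum of a lift, modulo two. -/
noncomputable def chi (hB : Data B) (D : Coords B ι) : ↥D.code →ₗ[ZMod 2] ZMod 2 :=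
  AddMonoidHom.toZModLinearMap 2 (AddMonoidHom.mk'
    (fun c => (((∑ i, c.2.choose_spec.choose i) / 2 : ℤ) : ZMod 2)) fun a b => by
    obtain ⟨hv, hy⟩ := a.2.choose_spec.choose_spec
    obtain ⟨hw, hz⟩ := b.2.choose_spec.choose_spec
    obtain ⟨hu, hx⟩ := (a + b).2.choose_spec.choose_spec
    generalize a.2.choose = v, a.2.choose_spec.choose = y at hv hy ⊢
    generalize b.2.choose = w, b.2.choose_spec.choose = z at hw hz ⊢
    generalize (a + b).2.choose = u, (a + b).2.choose_spec.choose = x at hu hx ⊢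
    have hpar : ∀ i, (2 : ℤ) ∣ x i - y i - z i := fun i => by
      rw [show (2 : ℤ) = ((2 : ℕ) : ℤ) from rfl, ← ZMod.intCast_zmod_eq_zero_iff_dvd, Int.cast_sub, Int.cast_sub, ← hx, ← hy, ← hz,
        Submodule.coe_add, Pi.add_apply]
      ring
    have h4 := D.four_even hB (v := u - v - w) (d := fun i => (x i - y i - z i) / 2) (by
      rw [map_sub, map_sub, hu, hv, hw]
      funext i
      have := hpar i
      simp only [Pi.sub_apply]
      omega)
    have hsum : 2 * ∑ i, (x i - y i - z i) / 2 = (∑ i, x i) - (∑ i, y i) - ∑ i, z i := by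
      rw [Finset.mul_sum, ← Finset.sum_sub_distrib, ← Finset.sum_sub_distrib]
      exact Finset.sum_congr rfl fun i _ => Int.mul_ediv_cancel' (hpar i)
    have ex := D.code_card_even hB hu
    have ey := D.code_card_even hB hv
    have ez := D.code_card_even hB hw
    rw [← Int.cast_add, ZMod.intCast_eq_intCast_iff_dvd_sub, Nat.cast_ofNat]
    omega)

theorem chi_spec (hB : Data B) (D : Coords B ι) {v : Fin 24 → ℤ} {y : ι → ℤ} (hv : D.φ v = fun i => 2 * y i) (c : ↥D.code)
    (hc : ∀ i, (c : ι → ZMod 2) i = (y i : ZMod 2)) : chi hB D c = (((∑ i, y i) / 2 : ℤ) : ZMod 2) := by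
  show (((∑ i, c.2.choose_spec.choose i) / 2 : ℤ) : ZMod 2) = _
  obtain ⟨hw, hz⟩ := c.2.choose_spec.choose_spec
  generalize c.2.choose = w, c.2.choose_spec.choose = z at hw hz ⊢
  have hpar : ∀ i, (2 : ℤ) ∣ y i - z i := fun i => by
    rw [show (2 : ℤ) = ((2 : ℕ) : ℤ) from rfl, ← ZMod.intCast_zmod_eq_zero_iff_dvd, Int.cast_sub, ← hz, ← hc, sub_self]
  have h4 := D.four_even hB (v := v - w) (d := fun i => (y i - z i) / 2) (by
    rw [map_sub, hv, hw]
    funext i
    have := hpar i
    simp only [Pi.sub_apply]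
    omega)
  have hsum : 2 * ∑ i, (y i - z i) / 2 = (∑ i, y i) - ∑ i, z i := by
    rw [Finset.mul_sum, ← Finset.sum_sub_distrib]
    exact Finset.sum_congr rfl fun i _ => Int.mul_ediv_cancel' (hpar i)
  have ey := D.code_card_even hB hv
  have ez := D.code_card_even hB hw
  rw [ZMod.intCast_eq_intCast_iff_dvd_sub, Nat.cast_ofNat]
  omega

theorem exists_signs (hB : Data B) (D : Coords B ι) :
    ∃ T : ι → Bool, ∀ (v : Fin 24 → ℤ) (y : ι → ℤ), (D.signs T).φ v = (fun i => 2 * y i) → (4 : ℤ) ∣ ∑ i, y i := by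
  classical
  obtain ⟨ψ, hψ⟩ := LinearMap.exists_extend (chi hB D)
  refine ⟨fun i => decide (ψ (Pi.single i 1) = 1), fun v y hv => ?_⟩
  set T : ι → Bool := fun i => decide (ψ (Pi.single i 1) = 1) with hT
  let y0 : ι → ℤ := fun i => if T i then -y i else y i
  have hv0 : D.φ v = fun i => 2 * y0 i := funext fun i => by
    have := congrFun hv i
    rw [signs_apply] at this
    simp only [y0]
    split_ifs at this ⊢ <;> omega
  let c : ↥D.code := ⟨fun i => (y0 i : ZMod 2), v, y0, hv0, fun i => rfl⟩
  have h1 := chi_spec hB D hv0 c fun i => rfl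
  have h2 : ψ c.1 = chi hB D c := LinearMap.congr_fun hψ c
  have h3 : ψ c.1 = ((∑ i, (if T i then y0 i else 0) : ℤ) : ZMod 2) := by
    conv_lhs => rw [pi_eq_sum_univ' c.1, map_sum]
    push_cast
    refine Finset.sum_congr rfl fun i _ => ?_
    rw [map_smul, smul_eq_mul]
    have e2 : ∀ a : ZMod 2, a = 0 ∨ a = 1 := by decide
    rcases e2 (ψ (Pi.single i 1)) with h | h <;> simp [hT, h, c]
  rw [h2, h1, ZMod.intCast_eq_intCast_iff_dvd_sub, Nat.cast_ofNat] at h3
  have e : ∑ i, y i = (∑ i, y0 i) - 2 * ∑ i, (if T i then y0 i else 0) := by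
    rw [Finset.mul_sum, ← Finset.sum_sub_distrib]
    refine Finset.sum_congr rfl fun i _ => ?_
    simp only [y0]
    split_ifs <;> ring
  have := D.code_card_even hB hv0
  omega

end Coords

theorem main (hB : Data B) : ∃ f : (Fin 24 → ℤ) ≃+ leechLattice,
    ∀ x, sqNorm ((f x : leechLattice) : GolayPt → ℤ) = 8 * ip B x x := by
  classical
  obtain ⟨D0, hD0⟩ := exists_golay_coords hB
  obtain ⟨T, hT⟩ := D0.exists_signs hB
  set D := D0.signs T
  have hcode : D.code = golayCode := (D0.code_signs T).trans hD0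
  obtain ⟨-, v1, hv1⟩ := D.enough hB rfl
  have hgood : ∀ v, Good (D.φ v) := by
    intro v
    rcases D.dichotomy v with h | h
    · let y : GolayPt → ℤ := fun i => D.φ v i / 2
      have hy : D.φ v = fun i => 2 * y i := funext fun i => (Int.mul_ediv_cancel' (h i)).symm
      refine ⟨0, y, Or.inl rfl, fun i => by rw [hy, zero_add], ?_, hcode ▸ ⟨v, y, hy, fun i => rfl⟩⟩
      obtain ⟨k, hk⟩ := hT v y hy
      rw [hy, ← Finset.mul_sum, hk]
      exact ⟨k, by ring⟩
    · let y : GolayPt → ℤ := fun i => D.φ v i / 2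
      have hy : ∀ i, D.φ v i = 1 + 2 * y i := fun i => by have := h i; simp only [y]; omega
      have hmem : (fun i => (y i : ZMod 2)) ∈ golayCode := by
        have h24 : Fintype.card GolayPt = 24 := rfl
        let E : GolayPt ≃ Fin 24 := Fintype.equivFinOfCardEq h24
        have hg := isGolay hB (D.reindex E)
        suffices (fun i => (y (E.symm i) : ZMod 2)) ∈ (D.reindex E).code by
          rw [code_reindex, hcode] at this
          simpa using this
        refine Code24.mem_of_orth hg fun c hc => ?_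
        rw [code_reindex] at hc
        obtain ⟨w, t, hw, ht⟩ := hc
        have h4 := hT w t hw
        have hd := D.dot v w
        simp only [hy, hw] at hd
        have e1 : ∑ i, (1 + 2 * y i) * (2 * t i) = 2 * (∑ i, t i) + 4 * ∑ i, y i * t i := by
          rw [Finset.mul_sum, Finset.mul_sum, ← Finset.sum_add_distrib]
          exact Finset.sum_congr rfl fun i _ => by ring
        have h2 : (2 : ℤ) ∣ ∑ i, y i * t i := by rw [e1] at hd; omega
        calc ∑ i, c i * (y (E.symm i) : ZMod 2) = ∑ k, c (E k) * (y k : ZMod 2) := by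
              rw [← Equiv.sum_comp E]; simp
          _ = ((∑ k, y k * t k : ℤ) : ZMod 2) := by
              push_cast
              exact Finset.sum_congr rfl fun k _ => by rw [show c (E k) = (t k : ZMod 2) from ht k, mul_comm]
          _ = 0 := (ZMod.intCast_zmod_eq_zero_iff_dvd _ 2).2 (by exact_mod_cast h2)
      refine ⟨1, y, Or.inr rfl, hy, ?_, hmem⟩
      obtain ⟨k, hk⟩ := hB.even v
      have hsq := D.sq v
      have e1 : ∑ i, D.φ v i ^ 2 = 24 + 4 * ∑ i, (y i ^ 2 + y i) := by
        rw [show (24 : ℤ) = ∑ _i : GolayPt, (1 : ℤ) from (by simp), Finset.mul_sum, ← Finset.sum_add_distrib]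
        exact Finset.sum_congr rfl fun i _ => by rw [hy]; ring
      rw [e1, show ip B v v = 2 * k from hk] at hsq
      have h4 : (4 : ℤ) ∣ ∑ i, (y i ^ 2 + y i - (y i + if (y i : ZMod 2) ≠ 0 then (1 : ℤ) else 0)) :=
        Finset.dvd_sum fun i _ => by
          rw [Coords.weight_cast (c := fun i => (y i : ZMod 2)) (fun i => rfl) i]
          refine ⟨(y i / 2) ^ 2 + (y i / 2) * (y i % 2), ?_⟩
          have e : y i = 2 * (y i / 2) + y i % 2 := (Int.mul_ediv_add_emod (y i) 2).symm
          have hr := Int.emod_two_eq_zero_or_one (y i)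
          generalize y i / 2 = q at e ⊢
          generalize y i % 2 = r at e hr ⊢
          rw [e]
          rcases hr with rfl | rfl <;> ring
      rw [Finset.sum_sub_distrib, Finset.sum_add_distrib, Finset.sum_add_distrib, Finset.sum_boole] at h4
      rw [Finset.sum_add_distrib] at hsq
      have hwt := D.code_four_dvd hB (hcode.symm ▸ hmem : (fun i => (y i : ZMod 2)) ∈ D.code)
      have e2 : ∑ i, D.φ v i = 24 + 2 * ∑ i, y i := by
        rw [show (24 : ℤ) = ∑ _i : GolayPt, (1 : ℤ) from (by simp), Finset.mul_sum, ← Finset.sum_add_distrib]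
        exact Finset.sum_congr rfl fun i _ => hy i
      rw [e2]
      omega
  have heven : ∀ x : GolayPt → ℤ, Good x → (∀ i, (2 : ℤ) ∣ x i) → x ∈ D.φ.range := by
    rintro x ⟨m, y, hm, hx, hs, hw⟩ hev
    obtain rfl : m = 0 := by have := hev none; rw [hx] at this; omega
    rw [← hcode] at hw
    obtain ⟨v, t, hv, ht⟩ := hw
    have h4 := hT v t hv
    have hpar : ∀ i, (2 : ℤ) ∣ y i - t i := fun i => by
      rw [show (2 : ℤ) = ((2 : ℕ) : ℤ) from rfl, ← ZMod.intCast_zmod_eq_zero_iff_dvd, Int.cast_sub, ← ht, sub_self]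
    have hxe : x = fun i => 2 * y i := funext fun i => by rw [hx, zero_add]
    rw [hxe, ← Finset.mul_sum] at hs
    obtain ⟨u, hu⟩ := D.four_mem (d := fun i => (y i - t i) / 2) (by
      have hsum : 2 * ∑ i, (y i - t i) / 2 = (∑ i, y i) - ∑ i, t i := by
        rw [Finset.mul_sum, ← Finset.sum_sub_distrib]
        exact Finset.sum_congr rfl fun i _ => Int.mul_ediv_cancel' (hpar i)
      omega)
    refine ⟨v + u, ?_⟩
    rw [hxe, map_add, hv, hu]
    funext i
    have := hpar i
    simp only [Pi.add_apply]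
    omega
  have hall : ∀ x : GolayPt → ℤ, Good x → x ∈ D.φ.range := by
    intro x hx
    by_cases h : (2 : ℤ) ∣ x none
    · refine heven x hx fun i => ?_
      obtain ⟨m, y, hm, hxy, -, -⟩ := hx
      rw [hxy] at h ⊢; omega
    · have h2 : x - D.φ v1 ∈ D.φ.range := by
        refine heven _ ?_ fun i => ?_
        · have := good_add hx (good_neg (hgood v1))
          rwa [← sub_eq_add_neg] at this
        · obtain ⟨m, y, hm, hxy, -, -⟩ := hx
          have := hv1 i
          rw [Pi.sub_apply, hxy]
          rw [hxy] at h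
          omega
      have := add_mem h2 ⟨v1, rfl⟩
      rwa [sub_add_cancel] at this
  let f : (Fin 24 → ℤ) →+ leechLattice := D.φ.codRestrict _ fun v => mem_iff.2 (hgood v)
  have hf : Function.Bijective f := ⟨fun a b h => D.inj (congrArg Subtype.val h), fun x => by
    obtain ⟨v, hv⟩ := hall _ (mem_iff.1 x.2)
    exact ⟨v, Subtype.ext hv⟩⟩
  exact ⟨AddEquiv.ofBijective f hf, fun x => D.sq x⟩

end Cfsg.Agent.Lib.Leech.Even
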