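import Cfsg.Agent.Lib.Leech.Crosses
import Cfsg.Agent.S5408

/-!
The classes fixed by all sign changes up to the class of `8e`.
-/

set_option autoImplicit false

namespace Cfsg.Agent.Lib.Leech

open Cfsg Golay Cfsg.Agent.S5408

theorem four_of_dvd {x : ↥leechLattice} (h4 : ∀ i, (4 : ℤ) ∣ (x : GolayPt → ℤ) i) : ∃ y : ↥Kev, four y = x := by
  choose y hy using h4
  obtain ⟨m, t, hm, ht, hs, -⟩ := mem_iff.1 x.2
  obtain rfl : m = 0 := by
    have h1 := ht none
    rw [hy none] at h1
    omega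
  refine ⟨⟨y, ?_⟩, Subtype.ext (funext fun i => (hy i).symm)⟩
  show (2 : ℤ) ∣ ∑ i, y i
  rw [Finset.sum_congr rfl (fun i _ => hy i), ← Finset.mul_sum] at hs
  omega

theorem exists_octad {p q : GolayPt} : ∃ o ∈ octads, p ∈ o ∧ q ∈ o ∧ ∀ r : GolayPt, ∃ i ∈ o, i ≠ r := by
  obtain ⟨T, hT, -, hT5⟩ := Finset.exists_subsuperset_card_eq (Finset.subset_univ ({p, q} : Finset GolayPt))
    (n := 5) (Finset.card_le_two.trans (by norm_num)) (by rw [Finset.card_univ, show Fintype.card GolayPt = 24 from rfl]; norm_num)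
  obtain ⟨o, ⟨ho, hTo⟩, -⟩ := octads_steiner.2 T hT5
  refine ⟨o, ho, hTo (hT (by simp)), hTo (hT (by simp)), fun r => ?_⟩
  exact Finset.exists_mem_ne (by rw [octads_card ho]; norm_num) r

/-- Classes fixed by all sign changes, up to the class of `8e`. -/
theorem fixed_class (x : ↥leechLattice)
    (h : ∀ (c : Finset GolayPt) (hc : c ∈ codeSets),
      Cong (flipCo c hc • x) x ∨ Cong (flipCo c hc • x) (x + e8 none)) : ∃ y : ↥Kev, Cong x (four y) := by
  obtain ⟨m, y, hm, hy, hs, hw⟩ := mem_iff.1 x.2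
  -- the halves
  have hz : ∀ (c : Finset GolayPt) (hc : c ∈ codeSets), ∃ (δ : ℤ) (z : ↥leechLattice), (δ = 0 ∨ δ = 4) ∧
      ∀ i, (z : GolayPt → ℤ) i = (if i ∈ c then -(x : GolayPt → ℤ) i else 0) - if i = none then δ else 0 := by
    intro c hc
    rcases h c hc with ⟨z, hz⟩ | ⟨z, hz⟩
    · refine ⟨0, z, Or.inl rfl, fun i => ?_⟩
      have := congrArg (fun t : ↥leechLattice => (t : GolayPt → ℤ) i) hz
      change (if i ∈ c then -(x : GolayPt → ℤ) i else (x : GolayPt → ℤ) i) - (x : GolayPt → ℤ) i = (z : GolayPt → ℤ) i + (z : GolayPt → ℤ) i at this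
      split_ifs at this ⊢ <;> omega
    · refine ⟨4, z, Or.inr rfl, fun i => ?_⟩
      have := congrArg (fun t : ↥leechLattice => (t : GolayPt → ℤ) i) hz
      change (if i ∈ c then -(x : GolayPt → ℤ) i else (x : GolayPt → ℤ) i) - ((x : GolayPt → ℤ) i + (e8 none : GolayPt → ℤ) i) = (z : GolayPt → ℤ) i + (z : GolayPt → ℤ) i at this
      rw [coe_e8, Pi.single_apply] at this
      split_ifs at this ⊢ <;> omega
  obtain rfl : m = 0 := by
    rcases hm with r | rfl
    · exact r
    exfalso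
    obtain ⟨o, ho, -, -, hne⟩ := exists_octad (p := none) (q := none)
    obtain ⟨i, hi, hin⟩ := hne none
    obtain ⟨j, hj⟩ := Finset.exists_mem_notMem_of_card_lt_card (s := o ∪ {none}) (t := Finset.univ)
      ((Finset.card_union_le _ _).trans_lt (by
        rw [octads_card ho, Finset.card_singleton, Finset.card_univ, show Fintype.card GolayPt = 24 from rfl]; norm_num))
    simp only [Finset.mem_union, Finset.mem_singleton, not_or] at hj
    obtain ⟨δ, z, hδ, hzz⟩ := hz o ho.1
    obtain ⟨m', t, hm', ht, -, -⟩ := mem_iff.1 z.2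
    have h1 := hzz i; have h2 := hzz j
    rw [ht, if_pos hi, if_neg hin, hy] at h1
    rw [ht, if_neg hj.2.1, if_neg hj.2.2] at h2
    omega
  have hD := support_mem hw
  rw [support_cast] at hD
  -- the parity set is trivial
  have hpar : (∀ i, (2 : ℤ) ∣ y i) ∨ ∀ i, ¬ (2 : ℤ) ∣ y i := by
    by_contra hcon
    push Not at hcon
    obtain ⟨⟨p, hp⟩, q, hq⟩ := hcon
    obtain ⟨o, ho, hpo, hqo, -⟩ := exists_octad (p := p) (q := q)
    obtain ⟨δ, z, hδ, hzz⟩ := hz o ho.1
    obtain ⟨m', t, hm', ht, -, htc⟩ := mem_iff.1 z.2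
    obtain rfl : m' = 0 := by
      have h1 := hzz p
      rw [ht, if_pos hpo, hy] at h1
      split_ifs at h1 <;> omega
    have hsub : (Finset.univ.filter fun i => ¬ (2 : ℤ) ∣ t i) = o.filter fun i => ¬ (2 : ℤ) ∣ y i := by
      ext i
      have h1 := hzz i
      rw [ht] at h1
      simp only [Finset.mem_filter, Finset.mem_univ, true_and]
      by_cases hi : i ∈ o
      · rw [if_pos hi, hy] at h1
        simp only [hi, true_and]
        split_ifs at h1 <;> omega
      · rw [if_neg hi] at h1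
        simp only [hi, false_and, iff_false]
        split_ifs at h1 <;> omega
    have hc := card_cases (support_mem htc)
    rw [support_cast, hsub] at hc
    have h0 : 0 < (o.filter fun i => ¬ (2 : ℤ) ∣ y i).card := Finset.card_pos.2 ⟨p, Finset.mem_filter.2 ⟨hpo, hp⟩⟩
    have h8 : (o.filter fun i => ¬ (2 : ℤ) ∣ y i).card < 8 := by
      rw [← octads_card ho]
      exact Finset.card_lt_card (Finset.filter_ssubset.2 ⟨q, hqo, not_not.2 hq⟩)
    omega
  rcases hpar with he | ho
  · obtain ⟨k, hk⟩ := four_of_dvd (x := x) fun i => by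
      have := he i; rw [hy]; omega
    exact ⟨k, hk ▸ Cong.refl x⟩
  · obtain ⟨k, hk⟩ := four_of_dvd (x := x - (vFive + vFive)) fun i => by
      have := ho i
      show (4 : ℤ) ∣ (x : GolayPt → ℤ) i - ((if i = none then (5 : ℤ) else 1) + if i = none then (5 : ℤ) else 1)
      rw [hy]; split_ifs <;> omega
    exact ⟨k, vFive, by rw [hk]; abel⟩

end Cfsg.Agent.Lib.Leech
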