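import Cfsg.Agent.Lib.Leech.McPointData
import Cfsg.Agent.Lib.Leech.PtsPerm
import Cfsg.Agent.Lib.Classical.UnitaryFourThree

/-! Kernel checks for the point stabiliser on 112 points. -/

set_option autoImplicit false
set_option maxRecDepth 100000
set_option maxHeartbeats 0
set_option Elab.async false

namespace Cfsg.Agent.Lib.Leech.McPoint

open Cfsg.Agent.Lib.Classical.NineField Cfsg.Agent.Lib.Classical.UnitaryFourThree

/-- A number below nine as a field element. -/
def nine (a : ℕ) : Nine := ⟨Fin.ofNat 3 a, Fin.ofNat 3 (a / 3)⟩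

/-- The transversals. -/
def trans : List (List ℕ) :=
  transIdx.map fun T => T.map fun i => (PermOut.slpAll perms slp).getD i 0

/-- A basis of a line, as columns. -/
def lineB (i : Fin 112) : Matrix (Fin 4) (Fin 2) Nine :=
  Matrix.of fun r c => nine ((lineData.getD i.val []).getD (2 * r.val + c.val) 0)

/-- A left inverse of the basis. -/
def lineC (i : Fin 112) : Matrix (Fin 2) (Fin 4) Nine :=
  Matrix.of fun c r => if (pivotData.getD i.val []).getD c.val 0 = r.val then 1 else 0

/-- The unitary matrices matching the generators. -/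
def genM (k : Fin 3) : Matrix (Fin 4) (Fin 4) Nine :=
  Matrix.of fun i j => nine ((matData.getD k.val []).getD (4 * i.val + j.val) 0)

/-- The point moved to. -/
def target (k : Fin 3) (i : Fin 112) : Fin 112 := Fin.ofNat 112 (PermOut.im 7 (perms.getD k.val 0) i.val)

theorem perm_words :
    (let V := orbitVecs RankOrb.mcPtGens RankOrb.mcNearTree RankOrb.mcNear
     (List.range 3).all fun k => (List.range 112).all fun i =>
      key (wRun (RankOrb.mcPtGens.getD (k + 1) []) (V.getD i 0)) ==
        key (V.getD (PermOut.im 7 (perms.getD k 0) i) 0)) = true := by decide +kernel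

theorem perm_valid : (perms.all (PermOut.okP 112 7) && (perms.length == 3)) = true := by decide +kernel

theorem slp_check : PermOut.slpOK 112 7 perms slp = true := by decide +kernel

theorem chain_check : PermOut.chainOK 112 7 base trans [] = true := by decide +kernel

theorem index_check : (transIdx.all fun T => T.all fun i => Nat.blt i (PermOut.slpAll perms slp).length) = true := by
  decide +kernel

theorem length_check : (trans.map List.length).prod = 3265920 := by decide +kernel

theorem gen_unitary : ∀ k : Fin 3, (genM k).det = 1 ∧ star3 (genM k) * genM k = 1 := by decide +kernel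

theorem gen_lines_0 : ∀ i : Fin 112,
    genM 0 * lineB i = lineB (target 0 i) * (lineC (target 0 i) * (genM 0 * lineB i)) := by decide +kernel

theorem gen_lines_1 : ∀ i : Fin 112,
    genM 1 * lineB i = lineB (target 1 i) * (lineC (target 1 i) * (genM 1 * lineB i)) := by decide +kernel

theorem gen_lines_2 : ∀ i : Fin 112,
    genM 2 * lineB i = lineB (target 2 i) * (lineC (target 2 i) * (genM 2 * lineB i)) := by decide +kernel

theorem gen_lines (k : Fin 3) (i : Fin 112) :
    genM k * lineB i = lineB (target k i) * (lineC (target k i) * (genM k * lineB i)) := by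
  fin_cases k
  · exact gen_lines_0 i
  · exact gen_lines_1 i
  · exact gen_lines_2 i

theorem line_shape : ∀ i : Fin 112, lineB i 0 0 = 1 ∧ lineB i 0 1 = 0 ∧
    (lineB i 1 1 = 1 ∧ lineB i 1 0 = 0 ∨ lineB i 1 1 = 0 ∧ lineB i 2 1 = 1 ∧ lineB i 2 0 = 0) := by decide +kernel

/-- An entry of the data. -/
def entry (i m : ℕ) : ℕ := (lineData.getD i []).getD m 0

/-- The number of a line. -/
def dkey (i : ℕ) : ℕ :=
  entry i 0 + 16 * (entry i 1 + 16 * (entry i 2 + 16 * (entry i 3 + 16 * (entry i 4 + 16 * (entry i 5 +
    16 * (entry i 6 + 16 * entry i 7))))))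

theorem entry_lt : ((List.range 112).all fun i => (List.range 8).all fun m => Nat.blt (entry i m) 9) = true := by
  decide +kernel

theorem dkey_nodup : ((List.range 112).map dkey).Nodup := by decide +kernel

theorem nine_inj : ∀ a b : Fin 9, nine a.val = nine b.val → a = b := by decide +kernel

theorem lineB_inj (i j : Fin 112) (h : lineB i = lineB j) : i = j := by
  have hlt := entry_lt
  simp only [List.all_eq_true, List.mem_range, Nat.blt_eq] at hlt
  have he : ∀ (r : Fin 4) (c : Fin 2), entry i (2 * r.val + c.val) = entry j (2 * r.val + c.val) := fun r c => by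
    have hm : 2 * r.val + c.val < 8 := by omega
    exact congrArg Fin.val (nine_inj ⟨_, hlt i i.2 _ hm⟩ ⟨_, hlt j j.2 _ hm⟩ (congrFun (congrFun h r) c))
  have hk : dkey i = dkey j := by
    have a0 := he 0 0; have a1 := he 0 1; have a2 := he 1 0; have a3 := he 1 1
    have a4 := he 2 0; have a5 := he 2 1; have a6 := he 3 0; have a7 := he 3 1
    simp only [Fin.val_zero, Fin.val_one, Fin.val_two, show ((3 : Fin 4) : ℕ) = 3 from rfl] at a0 a1 a2 a3 a4 a5 a6 a7
    norm_num at a0 a1 a2 a3 a4 a5 a6 a7
    simp only [dkey, a0, a1, a2, a3, a4, a5, a6, a7]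
  exact Fin.ext (List.inj_on_of_nodup_map dkey_nodup (List.mem_range.2 i.2) (List.mem_range.2 j.2) hk)

theorem lines_distinct (i j : Fin 112) {A : Matrix (Fin 2) (Fin 2) Nine} (h : lineB i = lineB j * A) : i = j := by
  have e : ∀ r c, lineB i r c = lineB j r 0 * A 0 c + lineB j r 1 * A 1 c := fun r c => by
    rw [h, Matrix.mul_apply, Fin.sum_univ_two]
  obtain ⟨i0, i1, hi⟩ := line_shape i
  obtain ⟨j0, j1, hj⟩ := line_shape j
  have a0 := e 0 0
  have a1 := e 0 1
  rw [i0, j0, j1, one_mul, zero_mul, add_zero] at a0
  rw [i1, j0, j1, one_mul, zero_mul, add_zero] at a1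
  have b0 := e 1 0
  have b1 := e 1 1
  have c0 := e 2 0
  have c1 := e 2 1
  rw [← a0, mul_one] at b0 c0
  rw [← a1, mul_zero, zero_add] at b1 c1
  refine lineB_inj i j ?_
  have hA : A = 1 := by
    ext r c
    fin_cases r <;> fin_cases c
    · exact a0.symm
    · exact a1.symm
    · show A 1 0 = 0
      rcases hj with ⟨j11, j10⟩ | ⟨j11, j21, j20⟩
      · rw [j10, zero_add, j11, one_mul] at b0
        rw [j11, one_mul] at b1
        rcases hi with ⟨-, i10⟩ | ⟨i11, i21, -⟩
        · rw [← b0]; exact i10
        · rw [← b1, i11, mul_zero] at c1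
          exact absurd (i21.symm.trans c1) one_ne_zero
      · rw [j11, zero_mul] at b1
        rcases hi with ⟨i11, -⟩ | ⟨-, -, i20⟩
        · exact absurd (i11.symm.trans b1) one_ne_zero
        · rw [j20, zero_add, j21, one_mul] at c0
          rw [← c0]; exact i20
    · show A 1 1 = 1
      rcases hj with ⟨j11, j10⟩ | ⟨j11, j21, j20⟩
      · rw [j11, one_mul] at b1
        rcases hi with ⟨i11, -⟩ | ⟨i11, i21, -⟩
        · rw [← b1]; exact i11
        · rw [← b1, i11, mul_zero] at c1
          exact absurd (i21.symm.trans c1) one_ne_zero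
      · rw [j11, zero_mul] at b1
        rcases hi with ⟨i11, -⟩ | ⟨-, i21, -⟩
        · exact absurd (i11.symm.trans b1) one_ne_zero
        · rw [j21, one_mul] at c1
          rw [← c1]; exact i21
  rw [h, hA, Matrix.mul_one]

end Cfsg.Agent.Lib.Leech.McPoint
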