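import Cfsg.Agent.Lib.Leech.McPointPerm

/-! The point stabiliser is the projective unitary group of dimension four over nine elements. -/

set_option autoImplicit false
set_option maxRecDepth 100000

namespace Cfsg.Agent.Lib.Leech.McPoint

open Cfsg Matrix Cfsg.Agent.Lib.Classical.NineField Cfsg.Agent.Lib.Classical.UnitaryFourThree

/-- The matrix of a generator in the group. -/
def genS (k : Fin 3) : SU4 := ⟨⟨genM k, (gen_unitary k).1⟩, mem_SU4.2 (gen_unitary k).2⟩

/-- Generating pairs. -/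
noncomputable def pairs : Subgroup (Equiv.Perm (Fin 112) × SU4) :=
  Subgroup.closure (Set.range fun k : Fin 3 => (PermOut.perm 112 7 (perms.getD k.val 0), genS k))

theorem pairs_rel {p : Equiv.Perm (Fin 112) × SU4} (hp : p ∈ pairs) :
    ∀ i, ∃ A : Matrix (Fin 2) (Fin 2) Nine, mat p.2 * lineB i = lineB (p.1 i) * A := by
  have hmul : ∀ a b : Equiv.Perm (Fin 112) × SU4,
      (∀ i, ∃ A : Matrix (Fin 2) (Fin 2) Nine, mat a.2 * lineB i = lineB (a.1 i) * A) →
      (∀ i, ∃ A : Matrix (Fin 2) (Fin 2) Nine, mat b.2 * lineB i = lineB (b.1 i) * A) →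
      ∀ i, ∃ A : Matrix (Fin 2) (Fin 2) Nine, mat (a * b).2 * lineB i = lineB ((a * b).1 i) * A := by
    intro a b ha hb i
    obtain ⟨A, hA⟩ := hb i
    obtain ⟨A', hA'⟩ := ha (b.1 i)
    refine ⟨A' * A, ?_⟩
    rw [Prod.snd_mul, mat_mul, Matrix.mul_assoc, hA, ← Matrix.mul_assoc, hA', Matrix.mul_assoc]
    rfl
  have hone : ∀ i, ∃ A : Matrix (Fin 2) (Fin 2) Nine,
      mat (1 : Equiv.Perm (Fin 112) × SU4).2 * lineB i = lineB ((1 : Equiv.Perm (Fin 112) × SU4).1 i) * A :=
    fun i => ⟨1, by show (1 : Matrix (Fin 4) (Fin 4) Nine) * lineB i = lineB i * 1; rw [Matrix.one_mul, Matrix.mul_one]⟩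
  induction hp using Subgroup.closure_induction with
  | mem x hx =>
    obtain ⟨k, rfl⟩ := hx
    intro i
    have hlen := perm_valid
    simp only [Bool.and_eq_true, beq_iff_eq, List.all_eq_true] at hlen
    have hok : PermOut.okP 112 7 (perms.getD k.val 0) = true := by
      refine hlen.1 _ ?_
      rw [List.getD_eq_getElem _ _ (hlen.2.symm ▸ k.2)]; exact List.getElem_mem _
    have ht : target k i = PermOut.perm 112 7 (perms.getD k.val 0) i := by
      refine Fin.ext ?_
      have h1 := PermOut.perm_val hok i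
      have h2 := (PermOut.perm 112 7 (perms.getD k.val 0) i).2
      simp only [target, Fin.val_ofNat]
      rw [Nat.mod_eq_of_lt (by omega)]; exact h1.symm
    exact ⟨_, ht ▸ gen_lines k i⟩
  | one => exact hone
  | mul a b _ _ ha hb => exact hmul a b ha hb
  | inv a _ ha =>
    have hpow : ∀ n : ℕ, ∀ i, ∃ A : Matrix (Fin 2) (Fin 2) Nine,
        mat (a ^ n).2 * lineB i = lineB ((a ^ n).1 i) * A := by
      intro n
      induction n with
      | zero => rw [pow_zero]; exact hone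
      | succ n ih => rw [pow_succ]; exact hmul _ _ ih ha
    have e : a⁻¹ = a ^ (orderOf a - 1) := by
      refine inv_eq_of_mul_eq_one_left ?_
      rw [← pow_succ, Nat.sub_add_cancel (orderOf_pos a), pow_orderOf_eq_one]
    rw [e]
    exact hpow _

theorem pairs_scalar {p : Equiv.Perm (Fin 112) × SU4} (hp : p ∈ pairs) (hc : p.2 ∈ Subgroup.center SU4) :
    p.1 = 1 := by
  obtain ⟨μ, hμ⟩ := center_scalar hc
  have hμ0 : μ ≠ 0 := by
    intro h0
    have hd : (mat p.2).det = 1 := p.2.1.2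
    rw [hμ, h0, zero_smul, Matrix.det_zero] at hd
    exact zero_ne_one hd
  refine Equiv.ext fun i => ?_
  obtain ⟨A, hA⟩ := pairs_rel hp i
  rw [hμ, Matrix.smul_mul, Matrix.one_mul] at hA
  have h1 : lineB i = lineB (p.1 i) * (μ⁻¹ • A) := by
    rw [Matrix.mul_smul, ← hA, smul_smul, inv_mul_cancel₀ hμ0, one_smul]
  exact (lines_distinct i (p.1 i) h1).symm

theorem chain_card {R : Subgroup (Equiv.Perm (Fin 112))}
    (hR : ∀ k : Fin 3, PermOut.perm 112 7 (perms.getD k.val 0) ∈ R) : 3265920 ≤ Nat.card R := by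
  classical
  have hlen := perm_valid
  simp only [Bool.and_eq_true, beq_iff_eq, List.all_eq_true] at hlen
  have hinit : ∀ p ∈ perms, PermOut.okP 112 7 p = true ∧ PermOut.perm 112 7 p ∈ R := by
    intro p hp
    refine ⟨hlen.1 p hp, ?_⟩
    obtain ⟨j, hj, rfl⟩ := List.getElem_of_mem hp
    have := hR ⟨j, hlen.2 ▸ hj⟩
    rwa [List.getD_eq_getElem _ _ hj] at this
  have hall := PermOut.slp_mem (L := R) slp_check hinit
  have hmemT : ∀ T ∈ trans, ∀ t ∈ T, PermOut.okP 112 7 t = true ∧ PermOut.perm 112 7 t ∈ R := by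
    intro T hT t ht
    simp only [trans, List.mem_map] at hT
    obtain ⟨I, hI, rfl⟩ := hT
    obtain ⟨i, hi, rfl⟩ := List.mem_map.1 ht
    have hidx := index_check
    simp only [List.all_eq_true, Nat.blt_eq] at hidx
    refine hall _ ?_
    rw [List.getD_eq_getElem _ _ (hidx I hI i hi)]; exact List.getElem_mem _
  obtain ⟨S, hS, hc⟩ := PermOut.card_vectors trans (PermOut.chain_nodup chain_check)
  have hokv : ∀ v ∈ S, ∀ p ∈ v, PermOut.okP 112 7 p = true := fun v hv p hp => by
    obtain ⟨T, hT, hm⟩ := PermOut.forall₂_mem ((hS v).1 hv) p hp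
    exact (hmemT T hT p hm).1
  let F : S → R := fun v => ⟨PermOut.prodP 112 7 v.1, list_prod_mem fun x hx => by
    obtain ⟨p, hp, rfl⟩ := List.mem_map.1 hx
    obtain ⟨T, hT, hm⟩ := PermOut.forall₂_mem ((hS v.1).1 v.2) p hp
    exact (hmemT T hT p hm).2⟩
  have hF : Function.Injective F := fun u v e => by
    refine Subtype.ext (PermOut.chain_inj chain_check ((hS _).1 u.2) ((hS _).1 v.2)
      (fun T hT t ht => (hmemT T hT t ht).1) fun b hb => ?_)
    have hbn := PermOut.chain_base_lt chain_check b hb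
    rw [← PermOut.prodP_val (hokv _ u.2) ⟨b, hbn⟩, ← PermOut.prodP_val (hokv _ v.2) ⟨b, hbn⟩]
    exact congrArg (fun g : Equiv.Perm (Fin 112) => ((g ⟨b, hbn⟩ : Fin 112) : ℕ)) (congrArg Subtype.val e)
  have h := Nat.card_le_card_of_injective F hF
  rwa [Nat.card_eq_finsetCard, hc, length_check] at h

theorem iso_nine : Nonempty (↥ptStab ≃* Cfsg.PSU 4 Nine 3) := by
  obtain ⟨φ, hφ⟩ := exists_hom
  haveI : Finite ↥ptStab := Nat.finite_of_card_ne_zero (by rw [card_ptStab]; norm_num)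
  have hN : Nat.card (Cfsg.PSU 4 Nine 3) = 3265920 := (card_PSU_four_three Nine.card).trans (by norm_num)
  let g : ↥pairs →* Equiv.Perm (Fin 112) := (MonoidHom.fst _ _).comp pairs.subtype
  let f : ↥pairs →* Cfsg.PSU 4 Nine 3 :=
    (QuotientGroup.mk' _).comp ((MonoidHom.snd _ _).comp pairs.subtype)
  have hgle : g.range ≤ φ.range := by
    rintro _ ⟨⟨p, hp⟩, rfl⟩
    have : pairs ≤ φ.range.comap (MonoidHom.fst _ SU4) := by
      rw [pairs, Subgroup.closure_le]
      rintro _ ⟨k, rfl⟩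
      exact hφ k
    exact this hp
  have hgge : 3265920 ≤ Nat.card g.range :=
    chain_card fun k => ⟨⟨_, Subgroup.subset_closure (Set.mem_range_self k)⟩, rfl⟩
  have hφle : Nat.card φ.range ≤ 3265920 :=
    card_ptStab ▸ Nat.card_le_card_of_surjective _ φ.rangeRestrict_surjective
  have hgeq : Nat.card g.range = 3265920 :=
    le_antisymm ((Subgroup.card_le_of_le hgle).trans hφle) hgge
  have hRR : g.range = φ.range := Subgroup.eq_of_le_of_card_ge hgle (hgeq ▸ hφle)
  have hφinj : Function.Injective φ := by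
    have hb : Function.Bijective φ.rangeRestrict := φ.rangeRestrict_surjective.bijective_of_nat_card_le
      (by rw [card_ptStab, ← hRR, hgeq])
    exact fun a b e => hb.1 (Subtype.ext e)
  have hker : f.ker ≤ g.ker := by
    intro p hp
    exact pairs_scalar p.2 ((QuotientGroup.eq_one_iff _).1 hp)
  have e1 := f.ker.card_mul_index
  have e2 := g.ker.card_mul_index
  rw [Subgroup.index_ker] at e1 e2
  rw [hgeq] at e2
  have hfle : Nat.card f.range ≤ 3265920 := hN ▸ f.range.card_le_card_group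
  have hkc : Nat.card g.ker ≤ Nat.card f.ker := by
    have := Nat.mul_le_mul_left (Nat.card f.ker) hfle
    rw [e1, ← e2] at this
    exact Nat.le_of_mul_le_mul_right this (by norm_num)
  have hkeq : f.ker = g.ker := Subgroup.eq_of_le_of_card_ge hker hkc
  rw [hkeq] at e1
  have hfr : Nat.card f.range = 3265920 :=
    Nat.eq_of_mul_eq_mul_left Nat.card_pos (e1.trans e2.symm)
  have htop : f.range = ⊤ := Subgroup.eq_top_of_card_eq _ (hfr.trans hN.symm)
  exact ⟨(((MonoidHom.ofInjective hφinj).trans (MulEquiv.subgroupCongr hRR.symm)).trans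
    (QuotientGroup.quotientKerEquivRange g).symm).trans
    (((QuotientGroup.quotientMulEquivOfEq hkeq.symm).trans (QuotientGroup.quotientKerEquivRange f)).trans
      ((MulEquiv.subgroupCongr htop).trans Subgroup.topEquiv))⟩

/-- Moving a joint stabiliser of three vectors. -/
def tripleConj (k : ↥Co0) {a b c a' b' c' : ↥leechLattice} (ha : k • a = a') (hb : k • b = b') (hc : k • c = c') :
    ↥(MulAction.stabilizer ↥Co0 a ⊓ MulAction.stabilizer ↥Co0 b ⊓ MulAction.stabilizer ↥Co0 c) ≃*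
      ↥(MulAction.stabilizer ↥Co0 a' ⊓ MulAction.stabilizer ↥Co0 b' ⊓ MulAction.stabilizer ↥Co0 c') where
  toFun g := ⟨k * g * k⁻¹, by
    have hg := g.2
    simp only [Subgroup.mem_inf, MulAction.mem_stabilizer_iff] at hg ⊢
    refine ⟨⟨?_, ?_⟩, ?_⟩
    · rw [← ha, mul_smul, mul_smul, inv_smul_smul, hg.1.1]
    · rw [← hb, mul_smul, mul_smul, inv_smul_smul, hg.1.2]
    · rw [← hc, mul_smul, mul_smul, inv_smul_smul, hg.2]⟩
  invFun g := ⟨k⁻¹ * g * k, by
    have hg := g.2
    simp only [Subgroup.mem_inf, MulAction.mem_stabilizer_iff] at hg ⊢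
    refine ⟨⟨?_, ?_⟩, ?_⟩
    · rw [mul_smul, mul_smul, ha, hg.1.1, ← ha, inv_smul_smul]
    · rw [mul_smul, mul_smul, hb, hg.1.2, ← hb, inv_smul_smul]
    · rw [mul_smul, mul_smul, hc, hg.2, ← hc, inv_smul_smul]⟩
  left_inv g := Subtype.ext (by simp [mul_assoc])
  right_inv g := Subtype.ext (by simp [mul_assoc])
  map_mul' g h := Subtype.ext (by simp [mul_assoc])

theorem point_stab_iso {u v x : ↥leechLattice} (hu : sqNorm (u : GolayPt → ℤ) = 48)
    (hv : sqNorm (v : GolayPt → ℤ) = 32 ∧ sqNorm ((u : GolayPt → ℤ) - (v : GolayPt → ℤ)) = 32)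
    (hx : x ∈ mcPts u v) (F : Type) [Field F] [Fintype F] (hF : Fintype.card F = 9) :
    Nonempty (↥(MulAction.stabilizer ↥Co0 u ⊓ MulAction.stabilizer ↥Co0 v ⊓ MulAction.stabilizer ↥Co0 x) ≃*
      Cfsg.PSU 4 F 3) := by
  obtain ⟨k, hku, hkv⟩ := std_mc hu hv
  have hkx : k • x ∈ mcPts vFive fourFour := hku ▸ hkv ▸ (smul_mcPts k).2 hx
  obtain ⟨g, g1, g2, g3⟩ := mc_trans hkx
  obtain ⟨e⟩ := iso_nine
  obtain ⟨c⟩ := PSU_congr (FiniteField.ringEquivOfCardEq (K := Nine) (K' := F) (by rw [hF, Nine.card])) 4 3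
  exact ⟨(tripleConj (g⁻¹ * k) (a' := vFive) (b' := fourFour) (c' := mcBase)
    (by rw [mul_smul, hku, inv_smul_eq_iff, g1]) (by rw [mul_smul, hkv, inv_smul_eq_iff, g2])
    (by rw [mul_smul, inv_smul_eq_iff, g3])).trans (e.trans c)⟩

end Cfsg.Agent.Lib.Leech.McPoint
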