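import Cfsg.Agent.Lib.Leech.McPointChecks
import Cfsg.Agent.Lib.Leech.RankTransport
import Cfsg.Agent.Lib.Leech.PairGroups

/-! The point stabiliser of the McLaughlin configuration acting on 112 points. -/

set_option autoImplicit false
set_option maxRecDepth 100000

namespace Cfsg.Agent.Lib.Leech.McPoint

open Cfsg Golay

/-- The point stabiliser of the standard configuration. -/
def ptStab : Subgroup ↥Co0 :=
  MulAction.stabilizer ↥Co0 vFive ⊓ MulAction.stabilizer ↥Co0 fourFour ⊓ MulAction.stabilizer ↥Co0 mcBase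

theorem card_ptStab : Nat.card ptStab = 3265920 := by
  set P := pairStab fourFour
  have hfix : ∀ k ∈ P, k • vFive = vFive ∧ k • fourFour = fourFour := fun k hk =>
    ⟨MulAction.mem_stabilizer_iff.1 hk.1, MulAction.mem_stabilizer_iff.1 hk.2⟩
  have hbase : mcBase ∈ mcPts vFive fourFour := (mc_mem_iff vFive_shape.1).2 rep_facts.2.2.2.1
  have horb : MulAction.orbit ↥P mcBase = mcPts vFive fourFour := by
    ext y
    constructor
    · rintro ⟨⟨k, hk⟩, rfl⟩
      have h := (smul_mcPts (u := vFive) (v := fourFour) k).2 hbase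
      rwa [(hfix k hk).1, (hfix k hk).2] at h
    · intro hy
      obtain ⟨g, g1, g2, g3⟩ := mc_trans hy
      exact ⟨⟨g, g1, g2⟩, g3⟩
  have hstab : Nat.card (MulAction.stabilizer ↥P mcBase) = Nat.card ptStab :=
    Nat.card_congr
      { toFun := fun g => ⟨(g.1 : ↥Co0), ⟨g.1.2, g.2⟩⟩
        invFun := fun g => ⟨⟨g.1, g.2.1⟩, g.2.2⟩
        left_inv := fun _ => rfl
        right_inv := fun _ => rfl }
  have h := (MulAction.stabilizer ↥P mcBase).card_mul_index
  rw [MulAction.index_stabilizer, horb, mc_ncard, hstab, mcl_simple.2] at h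
  omega

theorem gens_mem : ∀ w ∈ RankOrb.mcPtGens, wCo w ∈ ptStab := by
  intro w hw
  have h := List.all_eq_true.1 fix_checks.2.2.2 w hw
  simp only [Bool.and_eq_true] at h
  exact ⟨⟨wCo_fix h.1.1.1 (funext vec_eqs.1) (by rw [vFive_shape.1]; norm_num) h.1.1.2,
    wCo_fix h.1.1.1 (funext vec_eqs.2.2) (by rw [rep_facts.1.1]; norm_num) h.1.2⟩,
    wCo_fix h.1.1.1 (x := mcBase) rfl (by rw [rep_facts.2.2.2.1.1]; norm_num) h.2⟩

/-- The representation on the 112 points, with the images of the generators. -/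
theorem exists_hom : ∃ φ : ↥ptStab →* Equiv.Perm (Fin 112),
    ∀ k : Fin 3, PermOut.perm 112 7 (perms.getD k.val 0) ∈ φ.range := by
  have h := mc_near_ok
  simp only [orbitOK, Bool.and_eq_true, List.all_eq_true, Nat.blt_eq, beq_iff_eq] at h
  obtain ⟨⟨⟨hok, hT⟩, hlen⟩, hd⟩ := h
  obtain ⟨hnd, -⟩ := distinctFrom_spec hd
  set V := orbitVecs RankOrb.mcPtGens RankOrb.mcNearTree RankOrb.mcNear with hV
  set x := mcNearPt
  have hx : (x : GolayPt → ℤ) = toVec RankOrb.mcNear := rfl
  have hx32 : sqNorm (x : GolayPt → ℤ) = 32 := rep_facts.2.2.2.2.1.1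
  have hall : ∀ a ∈ V, ∃ k ∈ ptStab, ((k • x : ↥leechLattice) : GolayPt → ℤ) = toVec a := by
    intro a ha
    rcases List.mem_cons.1 ha with rfl | ha
    · exact ⟨1, ptStab.one_mem, by rw [one_smul]; exact hx⟩
    · exact walk_reach ptStab hok gens_mem x (by omega) RankOrb.mcNearTree [RankOrb.mcNear] hT
        (fun c hc => by rw [List.mem_singleton.1 hc]; exact ⟨1, ptStab.one_mem, by rw [one_smul]; exact hx⟩) a ha
  choose f hf1 hf2 using hall
  set S := {y : ↥leechLattice | y ∈ mcPts vFive fourFour ∧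
    dotInt (mcBase : GolayPt → ℤ) (y : GolayPt → ℤ) = 8}
  have hn : S.ncard = 112 := mc_sub_ncard 8 112 (Or.inl ⟨rfl, rfl⟩)
  have hxS : x ∈ S := ⟨(mc_mem_iff vFive_shape.1).2 ⟨hx32, rep_facts.2.2.2.2.1.2.1, rep_facts.2.2.2.2.1.2.2.1⟩,
    rep_facts.2.2.2.2.1.2.2.2⟩
  have hS : ∀ k ∈ ptStab, ∀ y ∈ S, k • y ∈ S := by
    rintro k ⟨⟨k1, k2⟩, k3⟩ y ⟨h1, h2⟩
    have h := (smul_mcPts (u := vFive) (v := fourFour) k).2 h1
    rw [MulAction.mem_stabilizer_iff.1 k1, MulAction.mem_stabilizer_iff.1 k2] at h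
    refine ⟨h, ?_⟩
    have e := dot_smul k mcBase y
    rw [MulAction.mem_stabilizer_iff.1 k3] at e
    exact e.trans h2
  have hlt : ∀ i : Fin 112, (i : ℕ) < V.length := fun i => by rw [hlen]; exact i.2
  have hmem : ∀ i : Fin 112, V.getD i 0 ∈ V := fun i => by
    rw [List.getD_eq_getElem _ _ (hlt i)]; exact List.getElem_mem _
  let v : Fin 112 → S := fun i => ⟨f _ (hmem i) • x, hS _ (hf1 _ _) x hxS⟩
  have hv : ∀ i, ((v i : ↥leechLattice) : GolayPt → ℤ) = toVec (V.getD i 0) := fun i => hf2 _ _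
  have hkey : ∀ {i j : Fin 112}, key (V.getD i 0) = key (V.getD j 0) → i = j := fun {i j} e => by
    rw [List.getD_eq_getElem _ _ (hlt i), List.getD_eq_getElem _ _ (hlt j)] at e
    have hi : (i : ℕ) < (V.map key).length := by rw [List.length_map]; exact hlt i
    have hj : (j : ℕ) < (V.map key).length := by rw [List.length_map]; exact hlt j
    exact Fin.ext ((hnd.getElem_inj_iff (hi := hi) (hj := hj)).1 (by simpa using e))
  have hinj : Function.Injective v := fun i j e => hkey (key_congr (by rw [← hv, ← hv, e]))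
  haveI : Finite S := (Set.finite_of_ncard_pos (by rw [hn]; norm_num)).to_subtype
  have hbij := hinj.bijective_of_nat_card_le (by rw [Nat.card_fin, Nat.card_coe_set_eq, hn])
  let e := Equiv.ofBijective v hbij
  let act : ↥ptStab → Fin 112 → Fin 112 := fun g i =>
    e.symm ⟨(g : ↥Co0) • (e i : ↥leechLattice), hS _ g.2 _ (e i).2⟩
  have hact : ∀ g i, ((e (act g i) : S) : ↥leechLattice) = (g : ↥Co0) • (e i : ↥leechLattice) := fun g i => by
    simp [act]
  have hmul : ∀ g g' i, act (g * g') i = act g (act g' i) := fun g g' i =>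
    e.injective (Subtype.ext (by rw [hact, hact, hact, Subgroup.coe_mul, mul_smul]))
  have hone : ∀ i, act 1 i = i := fun i => e.injective (Subtype.ext (by rw [hact, Subgroup.coe_one, one_smul]))
  let φ : ↥ptStab →* Equiv.Perm (Fin 112) :=
    { toFun := fun g => ⟨act g, act g⁻¹, fun i => by rw [← hmul, inv_mul_cancel, hone],
        fun i => by rw [← hmul, mul_inv_cancel, hone]⟩
      map_one' := Equiv.ext hone
      map_mul' := fun g g' => Equiv.ext (hmul g g') }
  refine ⟨φ, fun k => ?_⟩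
  have hp := perm_words
  simp only [List.all_eq_true, List.mem_range, beq_iff_eq] at hp
  have hk : perms.getD k.val 0 ∈ perms := by
    have h3 := perm_valid
    simp only [Bool.and_eq_true, beq_iff_eq] at h3
    rw [List.getD_eq_getElem _ _ (h3.2.symm ▸ k.2)]; exact List.getElem_mem _
  have hpok : PermOut.okP 112 7 (perms.getD k.val 0) = true := by
    have h3 := perm_valid
    simp only [Bool.and_eq_true, List.all_eq_true] at h3
    exact h3.1 _ hk
  have hwm : RankOrb.mcPtGens.getD (k.val + 1) [] ∈ RankOrb.mcPtGens := by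
    have : k.val + 1 < RankOrb.mcPtGens.length := by
      have := k.2; simp only [RankOrb.mcPtGens, List.length_cons, List.length_nil]; omega
    rw [List.getD_eq_getElem _ _ this]; exact List.getElem_mem _
  refine ⟨⟨wCo (RankOrb.mcPtGens.getD (k.val + 1) []), gens_mem _ hwm⟩, Equiv.ext fun i => hkey ?_⟩
  rw [PermOut.perm_val hpok]
  rw [← hp k.val k.2 i i.2]
  refine key_congr ?_
  rw [← hv]
  show (((e (act _ i) : S) : ↥leechLattice) : GolayPt → ℤ) = _
  rw [hact]
  exact wRun_spec (hok _ hwm) (hv i) (by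
    show sqNorm ((f _ (hmem i) • x : ↥leechLattice) : GolayPt → ℤ) ≤ 64
    rw [Same.sqNorm_eq (x := x) ⟨f _ (hmem i), rfl⟩, hx32]; norm_num)

end Cfsg.Agent.Lib.Leech.McPoint
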