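import Cfsg.Agent.Lib.Leech.RankOrbits
import Cfsg.Agent.Lib.Leech.PairGroups
import Cfsg.Agent.Lib.Steiner.Unique22
import Cfsg.Agent.Lib.Steiner.Graph
import Cfsg.Agent.Lib.Steiner.PointBlockIso
import Cfsg.Prelude.Def_Sporadic

/-!
The 100 points of a pair as the vertices of the point-block graph of the blocks on 22 points.
-/

set_option autoImplicit false

namespace Cfsg.Agent.Lib.Leech

open Cfsg Golay Steiner

/-- One coordinate `-3`, all others `1`. -/
def ptVec (i : GolayPt) : ↥leechLattice :=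
  ⟨fun p => if p = i then -3 else 1, by
    refine mem_iff.2 ⟨1, fun p => if p = i then -2 else 0, Or.inr rfl, fun p => ?_, ?_, ?_⟩
    · dsimp only; split_ifs <;> norm_num
    · have h : ∀ p : GolayPt, (if p = i then (-3 : ℤ) else 1) = 1 + if p = i then -4 else 0 := fun p => by
        split_ifs <;> norm_num
      simp only [h, Finset.sum_add_distrib, Finset.sum_const, Finset.card_univ, Finset.sum_ite_eq', Finset.mem_univ,
        if_true, show Fintype.card GolayPt = 24 from rfl]
      norm_num
    · convert Submodule.zero_mem golayCode using 1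
      funext p
      by_cases hp : p = i
      · simp only [hp, if_true, Pi.zero_apply]
        exact (by decide : ((-2 : ℤ) : ZMod 2) = 0)
      · simp [hp]⟩

/-- Twice an octad. -/
def octVec {o : Finset GolayPt} (ho : o ∈ octads) : ↥leechLattice :=
  ⟨fun p => if p ∈ o then 2 else 0, by
    refine mem_iff.2 ⟨0, fun p => if p ∈ o then 1 else 0, Or.inl rfl, fun p => ?_, ?_, ?_⟩
    · dsimp only; split_ifs <;> norm_num
    · rw [Finset.sum_ite_mem, Finset.univ_inter, Finset.sum_const, octads_card ho]; norm_num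
    · obtain ⟨⟨w, hw, hs⟩, -⟩ := ho
      convert (SetLike.mem_coe.1 hw) using 1
      funext p
      have hp := Finset.ext_iff.1 hs p
      simp only [support₂, Finset.mem_filter, Finset.mem_univ, true_and] at hp
      have e2 : ∀ z : ZMod 2, z = 0 ∨ z = 1 := by decide
      dsimp only
      by_cases h : p ∈ o
      · rw [if_pos h, Int.cast_one]
        exact ((e2 (w p)).resolve_left (hp.2 h)).symm
      · rw [if_neg h, Int.cast_zero]
        exact (not_not.1 fun hne => h (hp.1 hne)).symm⟩

theorem coe_ptVec (i p : GolayPt) : (ptVec i : GolayPt → ℤ) p = 1 + if p = i then -4 else 0 := by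
  show (if p = i then (-3 : ℤ) else 1) = _
  split_ifs <;> norm_num

theorem coe_octVec {o : Finset GolayPt} (ho : o ∈ octads) (p : GolayPt) :
    (octVec ho : GolayPt → ℤ) p = if p ∈ o then 2 else 0 := rfl

theorem coe_base (p : GolayPt) :
    (vFive : GolayPt → ℤ) p = 1 + (if p = none then 4 else 0) ∧
    (fivePartner : GolayPt → ℤ) p = -1 + (if p = pt 0 then -4 else 0) ∧
    (fourFour : GolayPt → ℤ) p = (if p = none then 4 else 0) + (if p = pt 0 then 4 else 0) := by
  refine ⟨?_, ?_, rfl⟩
  · rw [shapes.1]; split_ifs <;> norm_num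
  · show (if p = pt 0 then (-5 : ℤ) else -1) = _
    split_ifs <;> norm_num

theorem sum_octVec {o : Finset GolayPt} (ho : o ∈ octads) : ∑ p, (octVec ho : GolayPt → ℤ) p = 16 := by
  simp only [coe_octVec]
  rw [Finset.sum_ite_mem, Finset.univ_inter, Finset.sum_const, octads_card ho]; norm_num

theorem sum_ptVec (i : GolayPt) : ∑ p, (ptVec i : GolayPt → ℤ) p = 20 := by
  simp only [coe_ptVec, Finset.sum_add_distrib, Finset.sum_const, Finset.card_univ, Finset.sum_ite_eq',
    Finset.mem_univ, if_true, show Fintype.card GolayPt = 24 from rfl]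
  norm_num

theorem dot_base (x : GolayPt → ℤ) :
    dotInt (vFive : GolayPt → ℤ) x = (∑ p, x p) + 4 * x none ∧
    dotInt (fivePartner : GolayPt → ℤ) x = -(∑ p, x p) - 4 * x (pt 0) ∧
    dotInt (fourFour : GolayPt → ℤ) x = 4 * x none + 4 * x (pt 0) := by
  refine ⟨?_, ?_, ?_⟩ <;>
    simp only [dotInt, coe_base, add_mul, ite_mul, zero_mul, neg_mul, one_mul, Finset.sum_add_distrib,
      Finset.sum_neg_distrib, Finset.sum_ite_eq', Finset.mem_univ, if_true, sub_eq_add_neg]

theorem dot_ptVec (i : GolayPt) (x : GolayPt → ℤ) : dotInt (ptVec i : GolayPt → ℤ) x = (∑ p, x p) - 4 * x i := by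
  simp only [dotInt, coe_ptVec, add_mul, ite_mul, zero_mul, neg_mul, one_mul, Finset.sum_add_distrib,
    Finset.sum_ite_eq', Finset.mem_univ, if_true, sub_eq_add_neg]

theorem dot_octVec {o o' : Finset GolayPt} (ho : o ∈ octads) (ho' : o' ∈ octads) :
    dotInt (octVec ho : GolayPt → ℤ) (octVec ho' : GolayPt → ℤ) = 4 * ((o ∩ o').card : ℤ) := by
  simp only [dotInt, coe_octVec, ite_mul, zero_mul, mul_ite, mul_zero]
  rw [Finset.sum_ite_mem, Finset.univ_inter, Finset.sum_ite_mem, Finset.sum_const, Finset.inter_comm]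
  ring

/-- The vertices as vectors. -/
def pbVec : Option (Pt22 ⊕ ↥blocks22) → ↥leechLattice
  | none => fourFour
  | some (Sum.inl i) => ptVec i.1
  | some (Sum.inr b) => octVec (show Steiner.lift (b : Finset Pt22) ∈ octads from b.2)

theorem b_oct (b : ↥blocks22) : Steiner.lift (b : Finset Pt22) ∈ octads := b.2

theorem pt_notMem (i : Pt22) : (i.1 : GolayPt) ≠ none ∧ i.1 ≠ pt 0 := Steiner.notMem_pr.1 i.2

theorem base_mem_lift (b : Finset Pt22) : (none : GolayPt) ∈ Steiner.lift b ∧ pt 0 ∈ Steiner.lift b :=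
  ⟨Finset.mem_union_left _ (by decide), Finset.mem_union_left _ (by decide)⟩

theorem mem_lift_iff (b : Finset Pt22) (i : Pt22) : i.1 ∈ Steiner.lift b ↔ i ∈ b := by
  simp only [Steiner.lift, Finset.mem_union, i.2, false_or, Finset.mem_map, Function.Embedding.subtype_apply]
  exact ⟨fun ⟨a, ha, e⟩ => Subtype.ext e ▸ ha, fun h => ⟨i, h, rfl⟩⟩

theorem lift_inter_card (b c : Finset Pt22) :
    (Steiner.lift b ∩ Steiner.lift c).card = (b ∩ c).card + 2 := by
  rw [show Steiner.lift b ∩ Steiner.lift c = Steiner.lift (b ∩ c) by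
    rw [Steiner.lift, Steiner.lift, Steiner.lift, ← Finset.union_inter_distrib_left, Finset.map_inter]]
  exact lift_card _

theorem pbVec_mem (u : Option (Pt22 ⊕ ↥blocks22)) : pbVec u ∈ hsPts vFive fivePartner := by
  rcases u with _ | i | b
  · exact rep_facts.1
  · obtain ⟨h1, h2⟩ := pt_notMem i
    refine ⟨?_, ?_, ?_⟩
    · rw [← dot_self_eq]
      show dotInt (ptVec i.1 : GolayPt → ℤ) (ptVec i.1 : GolayPt → ℤ) = 32
      rw [dot_ptVec, sum_ptVec, coe_ptVec, if_pos rfl]; norm_num
    · rw [(dot_base _).1]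
      show (∑ p, (ptVec i.1 : GolayPt → ℤ) p) + 4 * (ptVec i.1 : GolayPt → ℤ) none = 24
      rw [sum_ptVec, coe_ptVec, if_neg h1.symm]; norm_num
    · rw [(dot_base _).2.1]
      show -(∑ p, (ptVec i.1 : GolayPt → ℤ) p) - 4 * (ptVec i.1 : GolayPt → ℤ) (pt 0) = -24
      rw [sum_ptVec, coe_ptVec, if_neg h2.symm]; norm_num
  · obtain ⟨h1, h2⟩ := base_mem_lift (b : Finset Pt22)
    refine ⟨?_, ?_, ?_⟩
    · rw [← dot_self_eq]
      show dotInt (octVec (b_oct b) : GolayPt → ℤ) (octVec (b_oct b) : GolayPt → ℤ) = 32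
      rw [dot_octVec, Finset.inter_self, octads_card (b_oct b)]; norm_num
    · rw [(dot_base _).1]
      show (∑ p, (octVec (b_oct b) : GolayPt → ℤ) p) + 4 * (octVec (b_oct b) : GolayPt → ℤ) none = 24
      rw [sum_octVec, coe_octVec, if_pos h1]; norm_num
    · rw [(dot_base _).2.1]
      show -(∑ p, (octVec (b_oct b) : GolayPt → ℤ) p) - 4 * (octVec (b_oct b) : GolayPt → ℤ) (pt 0) = -24
      rw [sum_octVec, coe_octVec, if_pos h2]; norm_num

theorem pbVec_dot_ne {u v : Option (Pt22 ⊕ ↥blocks22)} (hne : u ≠ v) :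
    dotInt (pbVec u : GolayPt → ℤ) (pbVec v : GolayPt → ℤ) ≠ 32 ∧
    ((pointBlockGraph blocks22).Adj u v ↔ dotInt (pbVec u : GolayPt → ℤ) (pbVec v : GolayPt → ℤ) = 8) := by
  have comm : ∀ x y : GolayPt → ℤ, dotInt x y = dotInt y x := fun x y => Finset.sum_congr rfl fun _ _ => mul_comm _ _
  have h0p : ∀ i : Pt22, dotInt (fourFour : GolayPt → ℤ) (ptVec i.1 : GolayPt → ℤ) = 8 := fun i => by
    rw [(dot_base _).2.2, coe_ptVec, coe_ptVec, if_neg (pt_notMem i).1.symm, if_neg (pt_notMem i).2.symm]; norm_num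
  have h0b : ∀ b : ↥blocks22, dotInt (fourFour : GolayPt → ℤ) (octVec (b_oct b) : GolayPt → ℤ) = 16 := fun b => by
    rw [(dot_base _).2.2, coe_octVec, coe_octVec, if_pos (base_mem_lift _).1, if_pos (base_mem_lift _).2]; norm_num
  have hpb : ∀ (i : Pt22) (b : ↥blocks22), dotInt (ptVec i.1 : GolayPt → ℤ) (octVec (b_oct b) : GolayPt → ℤ) =
      if i ∈ (b : Finset Pt22) then 8 else 16 := fun i b => by
    rw [dot_ptVec, sum_octVec, coe_octVec]
    by_cases h : i ∈ (b : Finset Pt22) <;> simp [h, mem_lift_iff]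
  rcases u with _ | i | b <;> rcases v with _ | j | c
  · exact absurd rfl hne
  · simp [pbVec, h0p, pointBlockGraph, SimpleGraph.fromRel_adj, pointBlockRel]
  · simp [pbVec, h0b, pointBlockGraph, SimpleGraph.fromRel_adj, pointBlockRel]
  · simp [pbVec, comm _ (fourFour : GolayPt → ℤ), h0p, pointBlockGraph, SimpleGraph.fromRel_adj, pointBlockRel]
  · have h : (i.1 : GolayPt) ≠ j.1 := fun e => hne (by rw [Subtype.ext e])
    simp only [pbVec]
    rw [dot_ptVec, sum_ptVec, coe_ptVec, if_neg h]
    simp [pointBlockGraph, SimpleGraph.fromRel_adj, pointBlockRel]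
  · simp only [pbVec, hpb]
    by_cases h : i ∈ (c : Finset Pt22) <;> simp [h, pointBlockGraph, SimpleGraph.fromRel_adj, pointBlockRel]
  · simp [pbVec, comm _ (fourFour : GolayPt → ℤ), h0b, pointBlockGraph, SimpleGraph.fromRel_adj, pointBlockRel]
  · simp only [pbVec, comm (octVec (b_oct b) : GolayPt → ℤ) (ptVec j.1 : GolayPt → ℤ), hpb]
    by_cases h : j ∈ (b : Finset Pt22) <;> simp [h, pointBlockGraph, SimpleGraph.fromRel_adj, pointBlockRel]
  · have hbc : b ≠ c := fun e => hne (by rw [e])
    have hle : ((b : Finset Pt22) ∩ (c : Finset Pt22)).card < 3 := by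
      by_contra h
      exact hbc (Subtype.ext (blocks22_inter b.2 c.2 (by omega)))
    simp only [pbVec, dot_octVec, lift_inter_card, pointBlockGraph, SimpleGraph.fromRel_adj, pointBlockRel, ne_eq,
      Option.some.injEq, Sum.inr.injEq, hbc, not_false_eq_true, true_and, disjoint_comm (b := (b : Finset Pt22)),
      or_self, Finset.disjoint_iff_inter_eq_empty]
    rw [← Finset.card_eq_zero]
    omega

theorem pbVec_injective : Function.Injective pbVec := fun u v h => by
  by_contra hne
  refine (pbVec_dot_ne hne).1 ?_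
  rw [h, dot_self_eq]
  exact (pbVec_mem v).1

theorem pb_adj (u v : Option (Pt22 ⊕ ↥blocks22)) :
    (pointBlockGraph blocks22).Adj u v ↔ dotInt (pbVec u : GolayPt → ℤ) (pbVec v : GolayPt → ℤ) = 8 := by
  rcases eq_or_ne u v with rfl | hne
  · rw [dot_self_eq, (pbVec_mem u).1]
    exact iff_of_false (SimpleGraph.irrefl _) (by norm_num)
  · exact (pbVec_dot_ne hne).2

theorem blocks22_ncard : Nat.card ↥blocks22 = 77 := by
  classical
  rw [← card22 card_Pt22 blocks22_steiner, Nat.card_eq_card_toFinset]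
  congr 1
  ext b
  simp [mem_blocks]

theorem pbVec_surj {y : ↥leechLattice} (hy : y ∈ hsPts vFive fivePartner) : ∃ u, pbVec u = y := by
  have hfin : (hsPts vFive fivePartner).Finite := Set.finite_of_ncard_pos (by rw [hs_ncard]; norm_num)
  have hsub : Set.range pbVec ⊆ hsPts vFive fivePartner := by rintro _ ⟨u, rfl⟩; exact pbVec_mem u
  have heq := Set.eq_of_subset_of_ncard_le hsub (by
    rw [hs_ncard, Set.ncard_range_of_injective pbVec_injective]
    haveI : Finite ↥blocks22 := Nat.finite_of_card_ne_zero (by rw [blocks22_ncard]; norm_num)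
    letI := Fintype.ofFinite ↥blocks22
    rw [Nat.card_eq_fintype_card, Fintype.card_option, Fintype.card_sum, card_Pt22, ← Nat.card_eq_fintype_card,
      blocks22_ncard]) hfin
  rw [← heq] at hy
  exact hy

/-- The joint stabilizer of the pair. -/
abbrev hsK : Subgroup ↥Co0 := MulAction.stabilizer ↥Co0 vFive ⊓ MulAction.stabilizer ↥Co0 fivePartner

theorem hsK_move (k : ↥hsK) (u : Option (Pt22 ⊕ ↥blocks22)) : ∃ v, pbVec v = (k : ↥Co0) • pbVec u := by
  refine pbVec_surj ?_
  have h := (smul_hsPts (v := vFive) (w := fivePartner) (k : ↥Co0)).2 (pbVec_mem u)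
  rwa [MulAction.mem_stabilizer_iff.1 k.2.1, MulAction.mem_stabilizer_iff.1 k.2.2] at h

/-- The induced map of vertices. -/
noncomputable def actV (k : ↥hsK) (u : Option (Pt22 ⊕ ↥blocks22)) : Option (Pt22 ⊕ ↥blocks22) := (hsK_move k u).choose

theorem actV_spec (k : ↥hsK) (u : Option (Pt22 ⊕ ↥blocks22)) : pbVec (actV k u) = (k : ↥Co0) • pbVec u :=
  (hsK_move k u).choose_spec

/-- The induced automorphisms. -/
noncomputable def pbHom : ↥hsK →* (pointBlockGraph blocks22 ≃g pointBlockGraph blocks22) where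
  toFun k :=
    { toFun := actV k
      invFun := actV k⁻¹
      left_inv := fun u => pbVec_injective (by rw [actV_spec, actV_spec, ← mul_smul, Subgroup.coe_inv, inv_mul_cancel, one_smul])
      right_inv := fun u => pbVec_injective (by rw [actV_spec, actV_spec, ← mul_smul, Subgroup.coe_inv, mul_inv_cancel, one_smul])
      map_rel_iff' := fun {u v} => by
        show (pointBlockGraph blocks22).Adj (actV k u) (actV k v) ↔ _
        rw [pb_adj, pb_adj, actV_spec, actV_spec, dot_smul] }
  map_one' := RelIso.ext fun u => pbVec_injective (by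
    show pbVec (actV 1 u) = pbVec u
    rw [actV_spec, Subgroup.coe_one, one_smul])
  map_mul' k k' := RelIso.ext fun u => pbVec_injective (by
    show pbVec (actV (k * k') u) = pbVec (actV k (actV k' u))
    rw [actV_spec, actV_spec, actV_spec, Subgroup.coe_mul, mul_smul])

theorem pbHom_none {u : Option (Pt22 ⊕ ↥blocks22)} : ∃ k : ↥hsK, pbHom k none = u := by
  obtain ⟨g, h1, h2, h3⟩ := hs_trans (pbVec_mem u)
  refine ⟨⟨g, h1, h2⟩, pbVec_injective ?_⟩
  show pbVec (actV _ none) = _
  rw [actV_spec]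
  exact h3

theorem hsK_isHS : IsHS ↥hsK := by
  have h := hs_simple
  rw [pairStab_fourNeg] at h
  exact h

theorem pbHom_injective : Function.Injective pbHom := by
  have := hsK_isHS.1
  rcases IsSimpleGroup.eq_bot_or_eq_top_of_normal pbHom.ker inferInstance with h | h
  · exact (MonoidHom.ker_eq_bot_iff _).1 h
  · exfalso
    obtain ⟨i⟩ : Nonempty Pt22 := Fintype.card_pos_iff.1 (by rw [card_Pt22]; norm_num)
    obtain ⟨k, hk⟩ := pbHom_none (u := some (Sum.inl i))
    rw [show pbHom k = 1 from MonoidHom.mem_ker.1 (h ▸ Subgroup.mem_top k)] at hk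
    exact absurd hk (by simp)

theorem pbAut_isHS : IsHS ↥pbHom.range :=
  ⟨haveI := hsK_isHS.1; (MonoidHom.ofInjective pbHom_injective).symm.isSimpleGroup,
    (Nat.card_congr (MonoidHom.ofInjective pbHom_injective).toEquiv).symm.trans hsK_isHS.2⟩

theorem pbAut_card : Nat.card (pointBlockGraph blocks22 ≃g pointBlockGraph blocks22) = 88704000 := by
  classical
  haveI : Finite ↥blocks22 := Nat.finite_of_card_ne_zero (by rw [blocks22_ncard]; norm_num)
  have hV : Nat.card (Option (Pt22 ⊕ ↥blocks22)) = 100 := by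
    letI := Fintype.ofFinite ↥blocks22
    rw [Nat.card_eq_fintype_card, Fintype.card_option, Fintype.card_sum, card_Pt22, ← Nat.card_eq_fintype_card,
      blocks22_ncard]
  haveI : Finite (pointBlockGraph blocks22 ≃g pointBlockGraph blocks22) := DFunLike.finite _
  have hfix : Nat.card {g : pointBlockGraph blocks22 ≃g pointBlockGraph blocks22 // g none = none} = 887040 := by
    obtain ⟨E, -⟩ := autEquiv22
    rw [card_fix_none, ← Nat.card_congr E.toEquiv, stSet_pr_card]
  let e : (pointBlockGraph blocks22 ≃g pointBlockGraph blocks22) ≃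
      Option (Pt22 ⊕ ↥blocks22) × {g : pointBlockGraph blocks22 ≃g pointBlockGraph blocks22 // g none = none} :=
    { toFun := fun g => (g none, ⟨(pbHom (pbHom_none (u := g none)).choose)⁻¹ * g, by
        show (pbHom (pbHom_none (u := g none)).choose).symm (g none) = none
        conv_lhs => arg 2; rw [← (pbHom_none (u := g none)).choose_spec]
        exact RelIso.symm_apply_apply _ _⟩)
      invFun := fun p => pbHom (pbHom_none (u := p.1)).choose * p.2.1
      left_inv := fun g => mul_inv_cancel_left _ _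
      right_inv := fun p => by
        have h : (pbHom (pbHom_none (u := p.1)).choose * p.2.1) none = p.1 := by
          show pbHom _ (p.2.1 none) = p.1
          rw [p.2.2]; exact (pbHom_none (u := p.1)).choose_spec
        refine Prod.ext h (Subtype.ext ?_)
        simp only [h, inv_mul_cancel_left] }
  rw [Nat.card_congr e, Nat.card_prod, hV, hfix]

end Cfsg.Agent.Lib.Leech
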