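import Cfsg.Agent.Lib.Leech.Stab
import Cfsg.Agent.Lib.Golay.Perfect

/-!
Checks for the classes fixed by many sign changes.
-/

set_option autoImplicit false
set_option maxRecDepth 100000

namespace Cfsg.Agent.Lib.Leech

open Cfsg Golay

/-- The number of code words meeting a given one in a code word. -/
def capCount (m : ℕ) : ℕ := ((List.range 4096).filter fun k => isCode (enc k &&& m)).length

theorem cap_reps : (isCode (octList.headD 0) && pc (octList.headD 0) == 8 && isCode (dodList.headD 0) &&
    pc (dodList.headD 0) == 12 && Nat.blt (capCount (octList.headD 0)) 129 && Nat.blt (capCount (dodList.headD 0)) 129) = true := by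
  decide +kernel

theorem tetrad_powerset : (toSet 0x824020).powerset =
    ([0, 1, 2, 3, 4, 5, 6, 7, 32, 33, 34, 35, 36, 37, 38, 39].map fun k => toSet (enc k) ∩ toSet 0x824020).toFinset := by
  decide +kernel

end Cfsg.Agent.Lib.Leech
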