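import Cfsg.Agent.Lib.Leech.SmallCheck
import Cfsg.Agent.Lib.Leech.Four

/-!
Classes of norm 64 vectors fixed by more than 128 sign changes.
-/

set_option autoImplicit false
set_option maxRecDepth 10000

namespace Cfsg.Agent.Lib.Leech

open Cfsg Golay
open scoped Pointwise Classical

theorem cap_mask {m : ℕ} (hm : isCode m = true) (h : capCount m < 129) :
    (codeFinset.filter fun c => toSet m ∩ c ∈ codeSets).card < 129 := by
  refine lt_of_le_of_lt ?_ h
  refine le_trans (Finset.card_le_card (t := (((List.range 4096).filter fun k => isCode (enc k &&& m)).map fun k => toSet (enc k)).toFinset)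
    fun c hc => ?_) ((List.toFinset_card_le _).trans (le_of_eq (List.length_map _)))
  obtain ⟨hc1, hc2⟩ := Finset.mem_filter.1 hc
  obtain ⟨n, hn, rfl⟩ := mem_codeSets.1 (mem_codeFinset.1 hc1)
  obtain ⟨k, hk, rfl⟩ := isCode_iff.1 hn
  rw [List.mem_toFinset, List.mem_map]
  refine ⟨k, List.mem_filter.2 ⟨List.mem_range.2 hk, ?_⟩, rfl⟩
  obtain ⟨n', hn', e⟩ := mem_codeSets.1 hc2
  have hlt : enc k &&& m < 16777216 := lt_of_le_of_lt Nat.and_le_left (enc_lt k)
  rw [← eq_of_toSet_eq (lt_of_isCode hn') hlt (by rw [e, toSet_and, Finset.inter_comm])]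
  exact hn'

theorem cap_small {D : Finset GolayPt} (hD : D ∈ codeSets) (h0 : D ≠ ∅) (h1 : D ≠ Finset.univ) :
    (codeFinset.filter fun c => D ∩ c ∈ codeSets).card < 129 := by
  have h := cap_reps
  simp only [Bool.and_eq_true, beq_iff_eq, Nat.blt_eq] at h
  obtain ⟨⟨⟨⟨⟨o1, o2⟩, d1⟩, d2⟩, o3⟩, d3⟩ := h
  have step : ∀ (R : Finset GolayPt), (codeFinset.filter fun c => R ∩ c ∈ codeSets).card < 129 →
      ∀ σ ∈ M24, (codeFinset.filter fun c => σ • R ∩ c ∈ codeSets).card < 129 := by
    intro R hR σ hσ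
    refine lt_of_le_of_lt (Finset.card_le_card_of_injOn (fun c => σ⁻¹ • c) (fun c hc => ?_)
      ((MulAction.injective σ⁻¹).injOn)) hR
    obtain ⟨hc1, hc2⟩ := Finset.mem_filter.1 (Finset.mem_coe.1 hc)
    refine Finset.mem_coe.2 (Finset.mem_filter.2 ⟨mem_codeFinset.2 (mem_codeSets_smul (inv_mem hσ) (mem_codeFinset.1 hc1)), ?_⟩)
    have := mem_codeSets_smul (inv_mem hσ) hc2
    rwa [Finset.smul_finset_inter, inv_smul_smul] at this
  have hoct : toSet (octList.headD 0) ∈ octads := ⟨mem_codeSets.2 ⟨_, o1, rfl⟩, (card_toSet _).trans o2⟩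
  have hdod : toSet (dodList.headD 0) ∈ dodecads := ⟨mem_codeSets.2 ⟨_, d1, rfl⟩, (card_toSet _).trans d2⟩
  rcases card_cases hD with hc | hc | hc | hc | hc
  · exact absurd (Finset.card_eq_zero.1 hc) h0
  · obtain ⟨σ, hσ, rfl⟩ := M24_trans_octads hoct ⟨hD, hc⟩
    exact step _ (cap_mask o1 o3) σ hσ
  · obtain ⟨σ, hσ, rfl⟩ := M24_trans_dodecads hdod ⟨hD, hc⟩
    exact step _ (cap_mask d1 d3) σ hσ
  · have h8 : Dᶜ ∈ octads := ⟨compl_mem_codeSets hD, by rw [Finset.card_compl, hc]; rfl⟩
    obtain ⟨σ, hσ, hσe⟩ := M24_trans_octads hoct h8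
    refine lt_of_le_of_lt (Finset.card_le_card fun c hc' => ?_) (hσe ▸ step _ (cap_mask o1 o3) σ hσ)
    obtain ⟨hc1, hc2⟩ := Finset.mem_filter.1 hc'
    refine Finset.mem_filter.2 ⟨hc1, ?_⟩
    have e : Dᶜ ∩ c = symmDiff c (D ∩ c) := by
      ext p; simp only [Finset.mem_inter, Finset.mem_compl, Finset.mem_symmDiff]; tauto
    rw [e]
    exact codeSets_symmDiff (mem_codeFinset.1 hc1) hc2
  · exact absurd (Finset.eq_univ_of_card _ (hc.trans (rfl : (24 : ℕ) = Fintype.card GolayPt))) h1

theorem sign_word (S : Finset GolayPt) (hS : S ⊆ toSet 0x824020) :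
    ∃ c ∈ codeSets, c ∩ toSet 0x824020 = S := by
  have h := Finset.mem_powerset.2 hS
  rw [tetrad_powerset, List.mem_toFinset, List.mem_map] at h
  obtain ⟨k, hk, e⟩ := h
  have hb : ∀ n ∈ [0, 1, 2, 3, 4, 5, 6, 7, 32, 33, 34, 35, 36, 37, 38, 39], n < 4096 := by decide
  exact ⟨_, mem_codeSets.2 ⟨_, isCode_iff.2 ⟨k, hb k hk, rfl⟩, rfl⟩, e⟩

/-- The vector `4(±1)⁴` on the first tetrad. -/
noncomputable def sextVec : ↥leechLattice := xiCo • e8 none

theorem sextVec_apply (p : GolayPt) :
    (sextVec : GolayPt → ℤ) p = if p ∈ toSet 0x824020 then (if p = none then 4 else -4) else 0 := by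
  rw [sextVec, coe_xiCo, coe_e8, show (Pi.single none (8 : ℤ) : GolayPt → ℤ) = frame none none from
    funext fun q => by simp only [frame, Pi.single_apply]; split_ifs <;> norm_num, xi_eight]
  simp only [frame]
  split_ifs with h1 h2 <;> simp_all
  exact absurd h2 (by decide)

theorem to_sextVec {T : Finset GolayPt} (hT : T.card = 4) (w : ↥leechLattice)
    (hw : ∀ p, (p ∈ T → (w : GolayPt → ℤ) p = 4 ∨ (w : GolayPt → ℤ) p = -4) ∧ (p ∉ T → (w : GolayPt → ℤ) p = 0)) :
    ∃ g : ↥Co0, g • cross0 = cross0 ∧ g • sextVec = w := by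
  classical
  obtain ⟨σ, hσ, h1, -⟩ := exists_move (A := T) (A' := toSet 0x824020) (B := ∅) (B' := ∅)
    (Finset.disjoint_empty_right _) (Finset.disjoint_empty_right _) (by rw [hT]; decide +kernel) rfl (by rw [hT]; simp)
  let S := (toSet 0x824020).filter fun q => (w : GolayPt → ℤ) (σ⁻¹ q) ≠ if q = none then 4 else -4
  obtain ⟨c, hc, hcS⟩ := sign_word S (Finset.filter_subset _ _)
  let a : ↥codeFinset × ↥M24 := (⟨c, mem_codeFinset.2 hc⟩, ⟨σ, hσ⟩)
  refine ⟨mono a, mono_mem a, Subtype.ext (funext fun p => ?_)⟩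
  show ((mono a • sextVec : ↥leechLattice) : GolayPt → ℤ) p = _
  rw [mono, mul_smul, coe_permCo]
  show (if σ p ∈ c then -(sextVec : GolayPt → ℤ) (σ p) else (sextVec : GolayPt → ℤ) (σ p)) = _
  rw [sextVec_apply]
  have hcs : σ p ∈ toSet 0x824020 → (σ p ∈ c ↔ (w : GolayPt → ℤ) p ≠ if σ p = none then 4 else -4) := fun hm => by
    have := Finset.ext_iff.1 hcS (σ p)
    simp only [Finset.mem_inter, hm, and_true, S, Finset.mem_filter, true_and, Equiv.Perm.inv_def, Equiv.symm_apply_apply] at this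
    exact this
  by_cases hm : σ p ∈ toSet 0x824020
  · have hp := (hw p).1 ((h1 p).1 hm)
    have h := hcs hm
    rw [if_pos hm]
    by_cases hn : σ p = none <;> simp only [hn, if_true, if_false] at h ⊢ <;> split_ifs with hcp
    · have := h.1 hcp; omega
    · have := not_not.1 (mt h.2 hcp); omega
    · have := h.1 hcp; omega
    · have := not_not.1 (mt h.2 hcp); omega
  · rw [if_neg hm, (hw p).2 fun h => hm ((h1 p).2 h)]
    split_ifs <;> rfl

theorem Cong.short {x y : ↥leechLattice} (h : Cong x y) (hx : sqNorm (x : GolayPt → ℤ) = 64)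
    (hy : sqNorm (y : GolayPt → ℤ) ≤ 32) : False := by
  obtain ⟨z, hz⟩ := h
  rcases short_congr y.2 hx.le (hy.trans (by norm_num)) ⟨z, z.2, by
    have := congrArg Subtype.val hz
    rw [AddSubgroup.coe_sub, AddSubgroup.coe_add] at this
    rw [this, two_smul]⟩ with e | e | ⟨-, e, -⟩
  · rw [e] at hx; omega
  · rw [e, show sqNorm (-(y : GolayPt → ℤ)) = sqNorm (y : GolayPt → ℤ) by simp [sqNorm]] at hx; omega
  · omega

theorem half_mem {x : ↥leechLattice} {c : Finset GolayPt} {hc : c ∈ codeSets} (h : Cong (flipCo c hc • x) x) :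
    (fun i => if i ∈ c then (x : GolayPt → ℤ) i else 0) ∈ leechLattice := by
  obtain ⟨z, hz⟩ := h
  convert neg_mem z.2 using 1
  funext i
  have := congrArg (fun t : ↥leechLattice => (t : GolayPt → ℤ) i) hz
  change (if i ∈ c then -(x : GolayPt → ℤ) i else (x : GolayPt → ℤ) i) - (x : GolayPt → ℤ) i =
    (z : GolayPt → ℤ) i + (z : GolayPt → ℤ) i at this
  show _ = -(z : GolayPt → ℤ) i
  split_ifs at this ⊢ <;> omega

/-- The class of an odd vector is fixed only by the trivial sign changes. -/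
theorem odd_fix {x : ↥leechLattice} (ho : (x : GolayPt → ℤ) none % 2 = 1) {c : Finset GolayPt} {hc : c ∈ codeSets}
    (h : Cong (flipCo c hc • x) x) : c = ∅ ∨ c = Finset.univ := by
  by_contra! hne
  obtain ⟨m, y, hm, hy, -, -⟩ := mem_iff.1 x.2
  obtain ⟨m', t, hm', ht, -, -⟩ := mem_iff.1 (half_mem h)
  obtain ⟨i, hi⟩ : ∃ i, i ∈ c := hne.1
  obtain ⟨j, hj⟩ : ∃ j, j ∉ c := by
    by_contra! h'
    exact hne.2 (Finset.eq_univ_of_forall h')
  have h0 := hy none
  have h1 := ht i
  have h2 := ht j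
  beta_reduce at h1 h2
  rw [if_pos hi, hy] at h1
  rw [if_neg hj] at h2
  omega

/-- Classes fixed by more than 128 sign changes. -/
theorem small_class (x : ↥leechLattice) (hx : sqNorm (x : GolayPt → ℤ) = 64) (K : Finset (Finset GolayPt))
    (hKc : K ⊆ codeFinset) (hK : 129 ≤ K.card)
    (hfix : ∀ c (hc : c ∈ codeSets), c ∈ K → Cong (flipCo c hc • x) x) :
    classOf x = cross0 ∨ ∃ g : ↥Co0, g • cross0 = cross0 ∧ classOf x = g • (xiCo • cross0) := by
  obtain ⟨m, y, hm, hy, hs, hw⟩ := mem_iff.1 x.2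
  have hhalf : ∀ c ∈ K, (fun i => if i ∈ c then (x : GolayPt → ℤ) i else 0) ∈ leechLattice := fun c hc =>
    half_mem (hfix c (mem_codeFinset.1 (hKc hc)) hc)
  obtain ⟨c0, hc0, hc0'⟩ : ∃ c ∈ K, c ≠ ∅ ∧ c ≠ Finset.univ := by
    by_contra! h
    have := Finset.card_le_card (s := K) (t := {∅, Finset.univ}) fun c hc => by
      rcases Finset.eq_empty_or_nonempty c with e | e
      · simp [e]
      · simp [h c hc e]
    have := Finset.card_le_two (a := (∅ : Finset GolayPt)) (b := Finset.univ)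
    omega
  obtain rfl : m = 0 := by
    rcases hm with r | rfl
    · exact r
    rcases odd_fix (by rw [hy]; omega) (hfix c0 (mem_codeFinset.1 (hKc hc0)) hc0) with e | e
    · exact absurd e hc0'.1
    · exact absurd e hc0'.2
  have hD := support_mem hw
  rw [support_cast] at hD
  set D := Finset.univ.filter fun i => ¬ (2 : ℤ) ∣ y i
  have hcap : K ⊆ codeFinset.filter fun c => D ∩ c ∈ codeSets := fun c hc => by
    refine Finset.mem_filter.2 ⟨hKc hc, ?_⟩
    obtain ⟨m', t, hm', ht, -, htc⟩ := mem_iff.1 (hhalf c hc)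
    beta_reduce at ht
    obtain rfl : m' = 0 := by
      have := ht none
      split_ifs at this with h
      · rw [hy] at this; omega
      · omega
    have := support_mem htc
    rw [support_cast] at this
    convert this using 1
    ext i
    have hi := ht i
    simp only [D, Finset.mem_inter, Finset.mem_filter, Finset.mem_univ, true_and]
    by_cases h : i ∈ c
    · rw [if_pos h, hy] at hi; simp only [h, and_true]; omega
    · rw [if_neg h] at hi; simp only [h, and_false, false_iff, not_not]; omega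
  have hD' : D = ∅ ∨ D = Finset.univ := by
    by_contra! h
    have := cap_small hD h.1.ne_empty h.2
    have := Finset.card_le_card hcap
    omega
  obtain ⟨x', hcong, h4⟩ : ∃ x' : ↥leechLattice, Cong x x' ∧ ∀ i, (4 : ℤ) ∣ (x' : GolayPt → ℤ) i := by
    rcases hD' with h | h
    · refine ⟨x, Cong.refl x, fun i => ?_⟩
      have := Finset.ext_iff.1 h i
      simp only [D, Finset.mem_filter, Finset.mem_univ, true_and, Finset.notMem_empty, iff_false, not_not] at this
      rw [hy]; omega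
    · refine ⟨x - (vFive + vFive), ⟨vFive, by abel⟩, fun i => ?_⟩
      have := Finset.ext_iff.1 h i
      simp only [D, Finset.mem_filter, Finset.mem_univ, true_and, iff_true] at this
      show (4 : ℤ) ∣ (x : GolayPt → ℤ) i - ((if i = none then (5 : ℤ) else 1) + if i = none then (5 : ℤ) else 1)
      rw [hy]; split_ifs <;> omega
  choose k hk using h4
  have hkev : (2 : ℤ) ∣ ∑ i, k i := by
    obtain ⟨m', t, hm', ht, hts, -⟩ := mem_iff.1 x'.2
    obtain rfl : m' = 0 := by have := ht none; rw [hk none] at this; omega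
    rw [Finset.sum_congr rfl fun i _ => hk i, ← Finset.mul_sum] at hts
    omega
  -- a short leader of the parities
  obtain ⟨v, hv4, hvc⟩ : ∃ v : GolayPt → ZMod 2, hammingNorm v ≤ 4 ∧ (fun i => (k i : ZMod 2)) - v ∈ golayCode := by
    rcases coset_leaders (fun i => (k i : ZMod 2)) with ⟨-, v, hv, h⟩ | ⟨hn, -⟩
    · exact ⟨v, by omega, h⟩
    · obtain ⟨v, hv⟩ := Set.nonempty_of_ncard_ne_zero (hn.trans_ne (by norm_num : (6 : ℕ) ≠ 0))
      exact ⟨v, hv⟩
  let T := Finset.univ.filter fun i => v i ≠ 0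
  have hTc : T.card ≤ 4 := hv4
  let d : GolayPt → ℤ := fun i => k i - if i ∈ T then 1 else 0
  have hdc : (fun i => (d i : ZMod 2)) ∈ golayCode := by
    convert hvc using 1
    funext i
    have e2 : ∀ a : ZMod 2, a ≠ 0 → a = 1 := by decide
    by_cases h : v i = 0
    · simp [d, T, h]
    · simp [d, T, h, e2 _ h]
  have hdeven : (2 : ℤ) ∣ ∑ i, d i := sum_even_of_parCode (show d ∈ parCode from hdc)
  have hTeven : 2 ∣ T.card := by
    simp only [d, Finset.sum_sub_distrib, Finset.sum_ite_mem, Finset.univ_inter, Finset.sum_const, nsmul_one] at hdeven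
    omega
  have fourMem : ∀ u : GolayPt → ℤ, (2 : ℤ) ∣ ∑ i, u i → (fun i => 4 * u i) ∈ leechLattice := fun u hu =>
    mem_iff.2 ⟨0, fun i => 2 * u i, Or.inl rfl, fun i => by ring, by rw [← Finset.mul_sum]; omega, by
      convert Submodule.zero_mem golayCode using 1
      funext i
      show ((2 * u i : ℤ) : ZMod 2) = 0
      rw [Int.cast_mul, show ((2 : ℤ) : ZMod 2) = 0 from rfl, zero_mul]⟩
  -- the reduced representative
  obtain ⟨a₀, ha₀⟩ : ∃ a : GolayPt, T ≠ ∅ → a ∈ T := by
    by_cases h : T = ∅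
    · exact ⟨none, fun h' => absurd h h'⟩
    · obtain ⟨a, ha⟩ := Finset.nonempty_iff_ne_empty.2 h
      exact ⟨a, fun _ => ha⟩
  let e : ℤ := if (4 : ℤ) ∣ ∑ i, d i then 0 else 1
  let u : GolayPt → ℤ := fun i => (if i ∈ T then 1 else 0) + if i = a₀ then -2 * e else 0
  have hu2 : (2 : ℤ) ∣ ∑ i, u i := by
    simp only [u, Finset.sum_add_distrib, Finset.sum_ite_mem, Finset.univ_inter, Finset.sum_const, nsmul_one,
      Finset.sum_ite_eq', Finset.mem_univ, if_true]
    omega
  let w : ↥leechLattice := ⟨_, fourMem u hu2⟩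
  have hxw : Cong x w := by
    refine hcong.trans ⟨⟨fun i => 2 * (k i - u i), ?_⟩, Subtype.ext (funext fun i => ?_)⟩
    · refine mem_iff.2 ⟨0, fun i => k i - u i, Or.inl rfl, fun i => by ring, ?_, ?_⟩
      · have e1 : ∑ i, (k i - u i) = (∑ i, d i) + 2 * e := by
          simp only [u, d, Finset.sum_add_distrib, Finset.sum_sub_distrib, Finset.sum_ite_eq', Finset.mem_univ, if_true]
          ring
        rw [← Finset.mul_sum, e1]
        simp only [e]
        split_ifs <;> omega
      · convert hdc using 1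
        funext i
        show ((k i - u i : ℤ) : ZMod 2) = (d i : ZMod 2)
        rw [ZMod.intCast_eq_intCast_iff_dvd_sub, Nat.cast_ofNat]
        simp only [u, d]
        split_ifs <;> omega
    · show (x' : GolayPt → ℤ) i - 4 * u i = 2 * (k i - u i) + 2 * (k i - u i)
      rw [hk i]; ring
  by_cases hT4 : T.card = 4
  · right
    have hne : T ≠ ∅ := fun h => by rw [h] at hT4; simp at hT4
    obtain ⟨g, hg, hgw⟩ := to_sextVec hT4 w fun p => by
      refine ⟨fun hp => ?_, fun hp => ?_⟩
      · show 4 * u p = 4 ∨ 4 * u p = -4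
        simp only [u, e, if_pos hp]
        split_ifs <;> norm_num
      · show 4 * u p = 0
        simp only [u, if_neg hp, if_neg (fun h : p = a₀ => hp (h ▸ ha₀ hne))]
        norm_num
    exact ⟨g, hg, by rw [classOf_congr hxw, ← hgw, sextVec, ← smul_classOf, ← smul_classOf, classOf_e8]⟩
  left
  rcases (show T.card = 0 ∨ T.card = 2 by omega) with h0 | h2
  · have hT : T = ∅ := Finset.card_eq_zero.1 h0
    have hu : ∀ i, u i = if i = a₀ then -2 * e else 0 := fun i => by simp [u, hT]
    by_cases he : e = 0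
    · exfalso
      refine hxw.short hx ?_
      show sqNorm (fun i => 4 * u i) ≤ 32
      simp [sqNorm, hu, he]
    · have he1 : e = 1 := by simp only [e] at he ⊢; split_ifs at he ⊢ <;> simp at he ⊢
      rw [classOf_congr hxw, show w = -e8 a₀ from Subtype.ext (funext fun i => by
        show 4 * u i = -(e8 a₀ : GolayPt → ℤ) i
        rw [coe_e8, hu, he1, Pi.single_apply]; split_ifs <;> norm_num), classOf_congr ((cong_neg _).trans (cong_e8 a₀)), classOf_e8]
  · exfalso
    refine hxw.short hx ?_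
    have hne : T ≠ ∅ := fun h => by rw [h] at h2; simp at h2
    have e1 : ∀ i, (4 * u i) ^ 2 = if i ∈ T then 16 else 0 := fun i => by
      by_cases hi : i ∈ T
      · simp only [u, e, if_pos hi]; split_ifs <;> norm_num
      · simp only [u, if_neg hi, if_neg (fun h : i = a₀ => hi (h ▸ ha₀ hne))]; norm_num
    show ∑ i, (4 * u i) ^ 2 ≤ 32
    rw [Finset.sum_congr rfl fun i _ => e1 i, Finset.sum_ite_mem, Finset.univ_inter, Finset.sum_const, h2]
    norm_num

end Cfsg.Agent.Lib.Leech
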