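import Cfsg.Agent.Lib.Leech.SubData
import Cfsg.Agent.Lib.Leech.RankData
import Cfsg.Agent.Lib.Leech.RankWeights
import Cfsg.Agent.Lib.Leech.DotsFast

/-!
Counts for the suborbits on 11178 points.
-/

set_option autoImplicit false
set_option maxRecDepth 100000

namespace Cfsg.Agent.Lib.Leech

open Cfsg Golay

theorem hs_sub_count : (cpOK (wTwo (toVec RankOrb.five) (toVec SubOrb.negFour)) (clsOf [-3995, 1, 4001]) 1339947576396084549298192601089058 &&
    (nsum (fun P => cntP (clsOf [-3995, 1, 4001]) 32 (-16 + 1000 * (-8)) (unpack (clsOf [-3995, 1, 4001]).length P)) (fastTable 1339947576396084549298192601089058) == 352) &&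
    (nsum (fun P => cntP (clsOf [-3995, 1, 4001]) 32 (-16 + 1000 * 16) (unpack (clsOf [-3995, 1, 4001]).length P)) (fastTable 1339947576396084549298192601089058) == 1100) &&
    (nsum (fun P => cntP (clsOf [-3995, 1, 4001]) 32 (-16 + 1000 * 0) (unpack (clsOf [-3995, 1, 4001]).length P)) (fastTable 1339947576396084549298192601089058) == 4125) &&
    (nsum (fun P => cntP (clsOf [-3995, 1, 4001]) 32 (-16 + 1000 * 8) (unpack (clsOf [-3995, 1, 4001]).length P)) (fastTable 1339947576396084549298192601089058) == 5600)) = true := by decide +kernel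

end Cfsg.Agent.Lib.Leech
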